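import Mathlib
import Cfsg.Prelude.Def_PLocal
import Cfsg.Agent.Lib.Helper47.Comm
import Cfsg.Agent.Lib.Helper47.Frat2
import Cfsg.Agent.Lib.Helper67.Basic
import Cfsg.Agent.Lib.Helper25.Basic
import Cfsg.Agent.Lib.Helper91.Coprime2

/-!
Basic lemmas on the conjugation action of elements normalizing an abelian subgroup `V`
(element-level commutator calculus), used for the failure-of-factorization structure theory.
-/

set_option autoImplicit false

namespace Cfsg.Agent.Lib.Helper11.FF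

open scoped commutatorElement

variable {G : Type*} [Group G]

theorem conj_mem_of_mem_normalizer {V : Subgroup G} {g v : G}
    (hg : g ∈ Subgroup.normalizer (V : Set G)) (hv : v ∈ V) : g * v * g⁻¹ ∈ V :=
  (Subgroup.mem_normalizer_iff.mp hg v).mp hv

theorem conj_inv_mem_of_mem_normalizer {V : Subgroup G} {g v : G}
    (hg : g ∈ Subgroup.normalizer (V : Set G)) (hv : v ∈ V) : g⁻¹ * v * g ∈ V :=
  (Subgroup.mem_normalizer_iff''.mp hg v).mp hv

theorem comm_mem_of_mem_normalizer {V : Subgroup G} {g v : G}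
    (hg : g ∈ Subgroup.normalizer (V : Set G)) (hv : v ∈ V) : ⁅g, v⁆ ∈ V := by
  rw [commutatorElement_def]
  exact V.mul_mem (conj_mem_of_mem_normalizer hg hv) (V.inv_mem hv)

/-- `⁅g, v * w⁆ = ⁅g, v⁆ * ⁅g, w⁆` on an abelian subgroup normalized by `g`. -/
theorem comm_mul {V : Subgroup G} (hc : ∀ u ∈ V, ∀ v ∈ V, u * v = v * u) {g v w : G}
    (hg : g ∈ Subgroup.normalizer (V : Set G)) (hv : v ∈ V) (hw : w ∈ V) :
    ⁅g, v * w⁆ = ⁅g, v⁆ * ⁅g, w⁆ := by
  have h1 := hc _ (comm_mem_of_mem_normalizer hg hw) _ (V.inv_mem hv)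
  rw [commutatorElement_def] at h1
  simp only [commutatorElement_def]
  calc g * (v * w) * g⁻¹ * (v * w)⁻¹ = g * v * g⁻¹ * ((g * w * g⁻¹ * w⁻¹) * v⁻¹) := by group
    _ = g * v * g⁻¹ * (v⁻¹ * (g * w * g⁻¹ * w⁻¹)) := by rw [h1]
    _ = g * v * g⁻¹ * v⁻¹ * (g * w * g⁻¹ * w⁻¹) := by group

theorem comm_one_right (g : G) : ⁅g, (1 : G)⁆ = 1 := by
  simp [commutatorElement_def]

theorem comm_inv {V : Subgroup G} (hc : ∀ u ∈ V, ∀ v ∈ V, u * v = v * u) {g v : G}
    (hg : g ∈ Subgroup.normalizer (V : Set G)) (hv : v ∈ V) :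
    ⁅g, v⁻¹⁆ = ⁅g, v⁆⁻¹ := by
  have h := comm_mul hc hg hv (V.inv_mem hv)
  rw [mul_inv_cancel, comm_one_right] at h
  exact eq_inv_of_mul_eq_one_right h.symm

theorem comm_pow {V : Subgroup G} (hc : ∀ u ∈ V, ∀ v ∈ V, u * v = v * u) {g v : G}
    (hg : g ∈ Subgroup.normalizer (V : Set G)) (hv : v ∈ V) (n : ℕ) :
    ⁅g, v ^ n⁆ = ⁅g, v⁆ ^ n := by
  induction n with
  | zero => simp
  | succ n ih => rw [pow_succ, comm_mul hc hg (V.pow_mem hv n) hv, ih, pow_succ]

/-- general identity `⁅g * h, v⁆ = g * ⁅h, v⁆ * g⁻¹ * ⁅g, v⁆`. -/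
theorem comm_mul_left (g h v : G) : ⁅g * h, v⁆ = g * ⁅h, v⁆ * g⁻¹ * ⁅g, v⁆ := by
  simp only [commutatorElement_def]; group

theorem conj_eq_comm_mul (g v : G) : g * v * g⁻¹ = ⁅g, v⁆ * v := by
  simp only [commutatorElement_def]; group

theorem comm_eq_one_iff (g v : G) : ⁅g, v⁆ = 1 ↔ g * v = v * g := by
  rw [commutatorElement_eq_one_iff_mul_comm]

/-- if `g` commutes with `⁅g, v⁆` then `⁅g ^ n, v⁆ = ⁅g, v⁆ ^ n`. -/
theorem comm_pow_left {g v : G} (h : g * ⁅g, v⁆ = ⁅g, v⁆ * g) (n : ℕ) :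
    ⁅g ^ n, v⁆ = ⁅g, v⁆ ^ n := by
  induction n with
  | zero => simp [commutatorElement_def]
  | succ n ih =>
    have h2 : g * ⁅g, v⁆ ^ n * g⁻¹ = ⁅g, v⁆ ^ n := by
      have : Commute g (⁅g, v⁆ ^ n) := (show Commute g ⁅g, v⁆ from h).pow_right n
      rw [this.eq, mul_inv_cancel_right]
    rw [pow_succ', comm_mul_left, ih, h2, pow_succ]

theorem centralizer_zpowers (a : G) :
    Subgroup.centralizer ((Subgroup.zpowers a : Subgroup G) : Set G) = Subgroup.centralizer {a} := by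
  apply le_antisymm
  · apply Subgroup.centralizer_le
    intro x hx
    rw [Set.mem_singleton_iff] at hx
    rw [hx]
    exact Subgroup.mem_zpowers a
  · intro g hg
    rw [Subgroup.mem_centralizer_iff] at hg ⊢
    intro h hh
    have h1 : a ∈ Subgroup.centralizer ({g} : Set G) := by
      rw [Subgroup.mem_centralizer_iff]
      intro x hx
      rw [Set.mem_singleton_iff] at hx
      rw [hx]
      exact (hg a rfl).symm
    have h2 := (Subgroup.zpowers_le.mpr h1) hh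
    rw [Subgroup.mem_centralizer_iff] at h2
    exact (h2 g rfl).symm

theorem mem_centralizer_singleton_iff {a g : G} :
    g ∈ Subgroup.centralizer ({a} : Set G) ↔ a * g = g * a := by
  rw [Subgroup.mem_centralizer_iff]
  constructor
  · intro h; exact h a rfl
  · intro h x hx
    rw [Set.mem_singleton_iff] at hx
    rw [hx]; exact h

theorem mem_centralizer_sup {A B : Subgroup G} {g : G} :
    g ∈ Subgroup.centralizer ((A ⊔ B : Subgroup G) : Set G) ↔
      g ∈ Subgroup.centralizer (A : Set G) ∧ g ∈ Subgroup.centralizer (B : Set G) := by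
  constructor
  · intro h
    exact ⟨Subgroup.centralizer_le (by exact_mod_cast (le_sup_left : A ≤ A ⊔ B)) h,
      Subgroup.centralizer_le (by exact_mod_cast (le_sup_right : B ≤ A ⊔ B)) h⟩
  · rintro ⟨hA, hB⟩
    have h1 : A ≤ Subgroup.centralizer ({g} : Set G) := by
      intro x hx
      rw [mem_centralizer_singleton_iff]
      exact ((Subgroup.mem_centralizer_iff.mp hA) x hx).symm
    have h2 : B ≤ Subgroup.centralizer ({g} : Set G) := by
      intro x hx
      rw [mem_centralizer_singleton_iff]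
      exact ((Subgroup.mem_centralizer_iff.mp hB) x hx).symm
    rw [Subgroup.mem_centralizer_iff]
    intro x hx
    have h3 := (sup_le h1 h2) hx
    rw [mem_centralizer_singleton_iff] at h3
    exact h3.symm

theorem centralizer_sup (A B : Subgroup G) :
    Subgroup.centralizer ((A ⊔ B : Subgroup G) : Set G) =
      Subgroup.centralizer (A : Set G) ⊓ Subgroup.centralizer (B : Set G) := by
  ext g
  rw [mem_centralizer_sup, Subgroup.mem_inf]

theorem centralizer_bot : Subgroup.centralizer (((⊥ : Subgroup G) : Subgroup G) : Set G) = ⊤ := by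
  rw [eq_top_iff]
  intro g _
  rw [Subgroup.mem_centralizer_iff]
  intro h hh
  have : h = 1 := by simpa using hh
  rw [this]; simp

/-- the centre of the "transvection" `a` on `V`: the commutator `[V, ⟨a⟩]`. -/
abbrev ctr (V : Subgroup G) (a : G) : Subgroup G := ⁅V, Subgroup.zpowers a⁆

theorem comm_mem_ctr {V : Subgroup G} {a v : G} (hv : v ∈ V) : ⁅a, v⁆ ∈ ctr V a := by
  have h := Subgroup.commutator_mem_commutator hv (Subgroup.mem_zpowers a)
  have h2 : ⁅a, v⁆ = ⁅v, a⁆⁻¹ := (commutatorElement_inv v a).symm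
  rw [h2]
  exact Subgroup.inv_mem _ h

theorem ctr_le {V : Subgroup G} {a : G} (ha : a ∈ Subgroup.normalizer (V : Set G)) :
    ctr V a ≤ V :=
  Cfsg.Agent.Lib.Helper47.commutator_le_of_le_normalizer
    (Subgroup.zpowers_le.mpr ha) le_rfl

/-- the subgroup `{⁅a, v⁆ | v ∈ V}` for `a` normalizing the abelian subgroup `V`. -/
def commSub (V : Subgroup G) (a : G) (hc : ∀ u ∈ V, ∀ v ∈ V, u * v = v * u)
    (ha : a ∈ Subgroup.normalizer (V : Set G)) : Subgroup G where
  carrier := {w | ∃ v ∈ V, w = ⁅a, v⁆}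
  one_mem' := ⟨1, V.one_mem, (comm_one_right a).symm⟩
  mul_mem' := by
    rintro _ _ ⟨v, hv, rfl⟩ ⟨w, hw, rfl⟩
    exact ⟨v * w, V.mul_mem hv hw, (comm_mul hc ha hv hw).symm⟩
  inv_mem' := by
    rintro _ ⟨v, hv, rfl⟩
    exact ⟨v⁻¹, V.inv_mem hv, (comm_inv hc ha hv).symm⟩

theorem commSub_le {V : Subgroup G} {a : G} (hc : ∀ u ∈ V, ∀ v ∈ V, u * v = v * u)
    (ha : a ∈ Subgroup.normalizer (V : Set G)) : commSub V a hc ha ≤ V := by
  rintro _ ⟨v, hv, rfl⟩
  exact comm_mem_of_mem_normalizer ha hv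

theorem comm_pow_mem_commSub {V : Subgroup G} {a : G} (hc : ∀ u ∈ V, ∀ v ∈ V, u * v = v * u)
    (ha : a ∈ Subgroup.normalizer (V : Set G)) (n : ℕ) {v : G} (hv : v ∈ V) :
    ⁅a ^ n, v⁆ ∈ commSub V a hc ha := by
  induction n with
  | zero => rw [pow_zero]; simp [commutatorElement_def]
  | succ n ih =>
    rw [pow_succ', comm_mul_left]
    have h1 : a * ⁅a ^ n, v⁆ * a⁻¹ = ⁅a, ⁅a ^ n, v⁆⁆ * ⁅a ^ n, v⁆ := conj_eq_comm_mul _ _
    rw [h1]
    refine (commSub V a hc ha).mul_mem ((commSub V a hc ha).mul_mem ?_ ih) ⟨v, hv, rfl⟩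
    exact ⟨_, commSub_le hc ha ih, rfl⟩

theorem ctr_eq_commSub [Finite G] {V : Subgroup G} {a : G}
    (hc : ∀ u ∈ V, ∀ v ∈ V, u * v = v * u)
    (ha : a ∈ Subgroup.normalizer (V : Set G)) : ctr V a = commSub V a hc ha := by
  apply le_antisymm
  · rw [Subgroup.commutator_le]
    intro v hv g hg
    obtain ⟨n, rfl⟩ := mem_powers_iff_mem_zpowers.mpr hg
    have h2 : ⁅v, a ^ n⁆ = ⁅a ^ n, v⁆⁻¹ := (commutatorElement_inv _ _).symm
    rw [h2]
    exact (commSub V a hc ha).inv_mem (comm_pow_mem_commSub hc ha n hv)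
  · rintro _ ⟨v, hv, rfl⟩
    exact comm_mem_ctr hv

theorem mem_ctr_iff [Finite G] {V : Subgroup G} {a : G} (hc : ∀ u ∈ V, ∀ v ∈ V, u * v = v * u)
    (ha : a ∈ Subgroup.normalizer (V : Set G)) {w : G} :
    w ∈ ctr V a ↔ ∃ v ∈ V, w = ⁅a, v⁆ := by
  rw [ctr_eq_commSub hc ha]
  rfl

end Cfsg.Agent.Lib.Helper11.FF
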