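import Mathlib
import Cfsg.Agent.Lib.Helper11.FFAct
import Cfsg.Agent.Lib.Helper34.ConjAux

/-!
Setup for the failure-of-factorization structure theory: a group `H` acting faithfully on an
elementary abelian `p`-subgroup `V`, with a normal `p'`-subgroup `K`; transvections.
-/

set_option autoImplicit false

namespace Cfsg.Agent.Lib.Helper11.FF

open scoped commutatorElement
open Cfsg.Agent.Lib.Helper47 Cfsg.Agent.Lib.Helper34

variable {G : Type*} [Group G]

/-- the commutator homomorphism `s ↦ ⁅a, s⁆` from a subgroup `S ≤ V` to `[V, ⟨a⟩]`. -/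
def commHom (V : Subgroup G) (a : G) (hc : ∀ u ∈ V, ∀ v ∈ V, u * v = v * u)
    (ha : a ∈ Subgroup.normalizer (V : Set G)) (S : Subgroup G) (hS : S ≤ V) : S →* ctr V a where
  toFun s := ⟨⁅a, (s : G)⁆, comm_mem_ctr (hS s.2)⟩
  map_one' := Subtype.ext (comm_one_right a)
  map_mul' s t := Subtype.ext (comm_mul hc ha (hS s.2) (hS t.2))

theorem card_ker_commHom (V : Subgroup G) (a : G) (hc : ∀ u ∈ V, ∀ v ∈ V, u * v = v * u)
    (ha : a ∈ Subgroup.normalizer (V : Set G)) (S : Subgroup G) (hS : S ≤ V) :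
    Nat.card (commHom V a hc ha S hS).ker =
      Nat.card ↥(S ⊓ Subgroup.centralizer ({a} : Set G)) := by
  apply Nat.card_congr
  refine
    { toFun := fun s => ⟨s.1.1, ⟨s.1.2, ?_⟩⟩
      invFun := fun t => ⟨⟨t.1, t.2.1⟩, ?_⟩
      left_inv := fun s => rfl
      right_inv := fun t => rfl }
  · have h := s.2
    rw [MonoidHom.mem_ker] at h
    have h2 : ⁅a, (s.1 : G)⁆ = 1 := congrArg Subtype.val h
    show (s.1 : G) ∈ Subgroup.centralizer ({a} : Set G)
    rw [mem_centralizer_singleton_iff]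
    exact (comm_eq_one_iff _ _).mp h2
  · rw [MonoidHom.mem_ker]
    apply Subtype.ext
    show ⁅a, t.1⁆ = 1
    rw [comm_eq_one_iff]
    exact mem_centralizer_singleton_iff.mp t.2.2

theorem card_le_fix_mul_ctr [Finite G] {V : Subgroup G} {a : G}
    (hc : ∀ u ∈ V, ∀ v ∈ V, u * v = v * u) (ha : a ∈ Subgroup.normalizer (V : Set G))
    (S : Subgroup G) (hS : S ≤ V) :
    Nat.card S ≤ Nat.card ↥(S ⊓ Subgroup.centralizer ({a} : Set G)) * Nat.card ↥(ctr V a) := by
  have h1 := Subgroup.card_eq_card_quotient_mul_card_subgroup (commHom V a hc ha S hS).ker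
  have h2 : Nat.card (S ⧸ (commHom V a hc ha S hS).ker) = Nat.card (commHom V a hc ha S hS).range :=
    Nat.card_congr (QuotientGroup.quotientKerEquivRange _).toEquiv
  have h3 : Nat.card (commHom V a hc ha S hS).range ≤ Nat.card (ctr V a) :=
    Subgroup.card_le_card_group _
  rw [h1, h2, card_ker_commHom, mul_comm]
  exact Nat.mul_le_mul_left _ h3

theorem card_eq_fix_mul_ctr [Finite G] {V : Subgroup G} {a : G}
    (hc : ∀ u ∈ V, ∀ v ∈ V, u * v = v * u) (ha : a ∈ Subgroup.normalizer (V : Set G)) :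
    Nat.card V = Nat.card ↥(V ⊓ Subgroup.centralizer ({a} : Set G)) * Nat.card ↥(ctr V a) := by
  have h1 := Subgroup.card_eq_card_quotient_mul_card_subgroup (commHom V a hc ha V le_rfl).ker
  have hsurj : Function.Surjective (commHom V a hc ha V le_rfl) := by
    rintro ⟨w, hw⟩
    obtain ⟨v, hv, rfl⟩ := (mem_ctr_iff hc ha).mp hw
    exact ⟨⟨v, hv⟩, rfl⟩
  have h2 : Nat.card (V ⧸ (commHom V a hc ha V le_rfl).ker) = Nat.card (ctr V a) :=
    Nat.card_congr (QuotientGroup.quotientKerEquivOfSurjective _ hsurj).toEquiv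
  rw [h1, h2, card_ker_commHom, mul_comm]

section prime
variable [Finite G] {p : ℕ} [Fact p.Prime]

theorem zpowers_eq_of_card_prime {P : Subgroup G} (hP : Nat.card P = p) {w : G} (hw : w ∈ P)
    (hw1 : w ≠ 1) : Subgroup.zpowers w = P := by
  have hpp : p.Prime := Fact.out
  have hle : Subgroup.zpowers w ≤ P := Subgroup.zpowers_le.mpr hw
  apply Subgroup.eq_of_le_of_card_ge hle
  rw [Nat.card_zpowers, hP]
  have h1 : orderOf (⟨w, hw⟩ : P) ∣ Nat.card P := orderOf_dvd_natCard _
  rw [hP, Subgroup.orderOf_mk] at h1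
  rcases (Nat.dvd_prime hpp).mp h1 with h | h
  · exact absurd (orderOf_eq_one_iff.mp h) hw1
  · exact h.ge

theorem exists_ne_one_of_card_prime {P : Subgroup G} (hP : Nat.card P = p) :
    ∃ w ∈ P, w ≠ 1 := by
  have hpp : p.Prime := Fact.out
  have h1 : P ≠ ⊥ := by
    intro h
    rw [h, Subgroup.card_bot] at hP
    exact hpp.one_lt.ne hP
  exact (Subgroup.ne_bot_iff_exists_ne_one.mp h1).elim fun w hw => ⟨w.1, w.2, fun h => hw (Subtype.ext h)⟩

theorem exists_pow_of_card_prime {P : Subgroup G} (hP : Nat.card P = p) {w : G} (hw : w ∈ P)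
    (hw1 : w ≠ 1) {x : G} (hx : x ∈ P) : ∃ k : ℕ, x = w ^ k := by
  rw [← zpowers_eq_of_card_prime hP hw hw1] at hx
  obtain ⟨k, rfl⟩ := mem_powers_iff_mem_zpowers.mpr hx
  exact ⟨k, rfl⟩

/-- a `p`-element normalizing a subgroup of order `p` centralizes it. -/
theorem commute_of_card_prime {P : Subgroup G} (hP : Nat.card P = p) {g : G} (hg : g ^ p = 1)
    (hn : ∀ w ∈ P, g * w * g⁻¹ ∈ P) {w : G} (hw : w ∈ P) : g * w = w * g := by
  have hpp : p.Prime := Fact.out
  by_cases hw1 : w = 1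
  · rw [hw1]; simp
  have hz := zpowers_eq_of_card_prime hP hw hw1
  have h1 : g * w * g⁻¹ ∈ Subgroup.zpowers w := by rw [hz]; exact hn w hw
  have hord : orderOf w = p := by
    have := Nat.card_zpowers w
    rw [hz, hP] at this
    exact this.symm
  have h2 : (orderOf g).Coprime (orderOf w).totient := by
    rw [hord, Nat.totient_prime hpp]
    have h3 : orderOf g ∣ p := orderOf_dvd_of_pow_eq_one hg
    rcases (Nat.dvd_prime hpp).mp h3 with h | h
    · rw [h]; exact Nat.coprime_one_left _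
    · rw [h]
      have : (p - 1).Coprime p := by
        have h5 : p - 1 + 1 = p := Nat.sub_add_cancel hpp.one_lt.le
        have h4 : (p - 1).Coprime (p - 1 + 1) := by simp
        rwa [h5] at h4
      exact this.symm
  have h3 := Cfsg.Agent.Lib.Helper67.conj_eq_self_of_coprime_totient w g h1 h2
  calc g * w = g * w * g⁻¹ * g := by group
    _ = w * g := by rw [h3]

end prime

/-- The standing hypotheses: `V` elementary abelian, `H` acting faithfully on `V`,
`K` a normal `p'`-subgroup of `H`. -/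
structure Setup (p : ℕ) (V H K : Subgroup G) : Prop where
  comm : ∀ u ∈ V, ∀ v ∈ V, u * v = v * u
  exp : ∀ v ∈ V, v ^ p = 1
  norm : H ≤ Subgroup.normalizer (V : Set G)
  faith : H ⊓ Subgroup.centralizer (V : Set G) = ⊥
  KH : K ≤ H
  Knorm : H ≤ Subgroup.normalizer (K : Set G)
  Kcop : (Nat.card K).Coprime p

namespace Setup

variable [Finite G] {p : ℕ} [Fact p.Prime] {V H K : Subgroup G}

theorem isPGroup_of_le (hs : Setup p V H K) {U : Subgroup G} (hU : U ≤ V) : IsPGroup p U := by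
  intro u
  refine ⟨1, Subtype.ext ?_⟩
  rw [pow_one, Subgroup.coe_pow]
  exact hs.exp u (hU u.2)

theorem eq_one_of_centralizes (hs : Setup p V H K) {g : G} (hg : g ∈ H)
    (hc : g ∈ Subgroup.centralizer (V : Set G)) : g = 1 := by
  have : g ∈ H ⊓ Subgroup.centralizer (V : Set G) := ⟨hg, hc⟩
  rw [hs.faith] at this
  exact Subgroup.mem_bot.mp this

theorem eq_one_of_forall_commute (hs : Setup p V H K) {g : G} (hg : g ∈ H)
    (hc : ∀ v ∈ V, g * v = v * g) : g = 1 := by
  apply hs.eq_one_of_centralizes hg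
  rw [Subgroup.mem_centralizer_iff]
  intro v hv
  exact (hc v hv).symm

theorem coprime_orderOf (hs : Setup p V H K) {c : G} (hc : c ∈ K) : (orderOf c).Coprime p := by
  have h1 : orderOf (⟨c, hc⟩ : K) ∣ Nat.card K := orderOf_dvd_natCard _
  rw [Subgroup.orderOf_mk] at h1
  exact Nat.Coprime.coprime_dvd_left h1 hs.Kcop

theorem eq_one_of_pow (hs : Setup p V H K) {c : G} (hc : c ∈ K) (hp : c ^ p = 1) : c = 1 := by
  have h1 := hs.coprime_orderOf hc
  have h2 : orderOf c ∣ p := orderOf_dvd_of_pow_eq_one hp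
  exact orderOf_eq_one_iff.mp (h1.eq_one_of_dvd h2)

theorem comm_mem_K (hs : Setup p V H K) {x a : G} (hx : x ∈ K) (ha : a ∈ H) : ⁅x, a⁆ ∈ K := by
  rw [commutatorElement_def]
  have h1 : a * x⁻¹ * a⁻¹ ∈ K := conj_mem_of_mem_normalizer (hs.Knorm ha) (K.inv_mem hx)
  have : x * a * x⁻¹ * a⁻¹ = x * (a * x⁻¹ * a⁻¹) := by group
  rw [this]
  exact K.mul_mem hx h1

/-- a `p`-element `a` commuting with `⁅x, a⁆` for `x ∈ K` commutes with `x`. -/
theorem commute_of_commute_comm (hs : Setup p V H K) {x a : G} (hx : x ∈ K) (ha : a ∈ H)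
    (hap : a ^ p = 1) (h : a * ⁅x, a⁆ = ⁅x, a⁆ * a) : x * a = a * x := by
  have hc : (⁅x, a⁆ * a) ^ p = 1 := by
    have : ⁅x, a⁆ * a = x * a * x⁻¹ := by simp only [commutatorElement_def]; group
    rw [this, conj_pow, hap]; group
  have h2 : (⁅x, a⁆ * a) ^ p = ⁅x, a⁆ ^ p * a ^ p :=
    (show Commute ⁅x, a⁆ a from h.symm).mul_pow p
  rw [h2, hap, mul_one] at hc
  have h3 := hs.eq_one_of_pow (hs.comm_mem_K hx ha) hc
  rw [commutatorElement_eq_one_iff_mul_comm] at h3
  exact h3

/-- an element of `K` stabilizing a chain `1 ≤ U ≤ V` is trivial. -/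
theorem eq_one_of_mem_chainStab (hs : Setup p V H K) {U : Subgroup G} (hU : U ≤ V) {g : G}
    (hg : g ∈ K) (hst : g ∈ chainStab V U) : g = 1 :=
  hs.eq_one_of_centralizes (hs.KH hg)
    (chainStab_coprime_mem_centralizer (hs.isPGroup_of_le hU) hst (hs.coprime_orderOf hg))

end Setup

end Cfsg.Agent.Lib.Helper11.FF
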