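import Mathlib
import Cfsg.Agent.Lib.Helper11.FFSetup

/-!
Transvections in a faithful group `H` on an elementary abelian `p`-subgroup `V` with a normal
`p'`-subgroup `K`: the key "two conjugate transvections" lemma and the span of the centres of the
`K`-conjugates of a transvection.
-/

set_option autoImplicit false

namespace Cfsg.Agent.Lib.Helper11.FF

open scoped commutatorElement
open Cfsg.Agent.Lib.Helper47 Cfsg.Agent.Lib.Helper34

variable {G : Type*} [Group G]

theorem mem_normalizer_of_forall_commute {g : G} {B : Subgroup G}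
    (h : ∀ b ∈ B, g * b = b * g) : g ∈ Subgroup.normalizer (B : Set G) := by
  rw [Subgroup.mem_normalizer_iff]
  intro b
  constructor
  · intro hb
    have : g * b * g⁻¹ = b := by rw [h b hb, mul_inv_cancel_right]
    rw [this]; exact hb
  · intro hb
    have h1 := h _ hb
    have : b = g * b * g⁻¹ := by
      have h2 : g * b * g⁻¹ * g = g * (g * b * g⁻¹) := by rw [h1]
      have h3 : g * b = g * (g * b * g⁻¹) := by rw [← h2]; group
      exact mul_left_cancel h3
    rw [this]; exact hb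

theorem le_normalizer_of_comm {A B : Subgroup G} (h : ∀ a ∈ A, ∀ b ∈ B, a * b = b * a) :
    A ≤ Subgroup.normalizer (B : Set G) :=
  fun a ha => mem_normalizer_of_forall_commute (h a ha)

theorem card_sup_of_comm_of_inf_eq_bot {A B : Subgroup G}
    (h : ∀ a ∈ A, ∀ b ∈ B, a * b = b * a) (hAB : A ⊓ B = ⊥) :
    Nat.card (A ⊔ B : Subgroup G) = Nat.card A * Nat.card B := by
  have h1 := Cfsg.Agent.Lib.Helper91.card_sup_mul_card_inf_of_le_normalizer A B
    (le_normalizer_of_comm (fun b hb a ha => (h a ha b hb).symm))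
  rw [hAB, Subgroup.card_bot, mul_one] at h1
  exact h1

/-- if `[V, g] ≤ U ≤ V` then `g` normalizes `U`. -/
theorem mem_normalizer_of_ctr_le {V U : Subgroup G} {g : G}
    (hU : U ≤ V) (h : ctr V g ≤ U) :
    g ∈ Subgroup.normalizer (U : Set G) := by
  rw [Subgroup.mem_normalizer_iff]
  intro u
  constructor
  · intro hu
    rw [conj_eq_comm_mul]
    exact U.mul_mem (h (comm_mem_ctr (hU hu))) hu
  · intro hu
    have h1 : ⁅g * u * g⁻¹, g⁻¹⁆ ∈ ctr V g :=
      Subgroup.commutator_mem_commutator (hU hu) (Subgroup.inv_mem _ (Subgroup.mem_zpowers g))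
    have h2 : u = (⁅g * u * g⁻¹, g⁻¹⁆)⁻¹ * (g * u * g⁻¹) := by
      simp only [commutatorElement_def]; group
    rw [h2]
    exact U.mul_mem (U.inv_mem (h h1)) hu

theorem ctr_conj {V : Subgroup G} (a : G) {x : G} (hx : x ∈ Subgroup.normalizer (V : Set G)) :
    ctr V (x * a * x⁻¹) = (ctr V a).map (MulAut.conj x).toMonoidHom := by
  show ⁅V, Subgroup.zpowers (x * a * x⁻¹)⁆ = (⁅V, Subgroup.zpowers a⁆).map _
  rw [Subgroup.map_commutator, MonoidHom.map_zpowers, map_conj_eq_self_of_mem_normalizer hx]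
  rfl

theorem mem_ctr_conj {V : Subgroup G} {a x w : G} (hx : x ∈ Subgroup.normalizer (V : Set G)) :
    w ∈ ctr V (x * a * x⁻¹) ↔ x⁻¹ * w * x ∈ ctr V a := by
  rw [ctr_conj a hx, mem_map_conj]

theorem conj_mem_ctr_conj {V : Subgroup G} {a x w : G} (hx : x ∈ Subgroup.normalizer (V : Set G))
    (hw : w ∈ ctr V a) : x * w * x⁻¹ ∈ ctr V (x * a * x⁻¹) := by
  rw [ctr_conj a hx]
  exact conj_mem_map_conj hw

/-- `a ∈ H` is a transvection on `V`: `a ^ p = 1` and `[V, a]` has order `p`. -/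
structure IsTransv (p : ℕ) (V H : Subgroup G) (a : G) : Prop where
  mem : a ∈ H
  pow : a ^ p = 1
  card : Nat.card ↥(ctr V a) = p

section transv

variable [Finite G] {p : ℕ} [Fact p.Prime] {V H K : Subgroup G} {a : G}

theorem IsTransv.conj_ctr_mem (_ht : IsTransv p V H a) {w : G} (hw : w ∈ ctr V a) :
    a * w * a⁻¹ ∈ ctr V a :=
  conj_mem_commutator_right V (Subgroup.zpowers a) (Subgroup.mem_zpowers a) hw

theorem IsTransv.commute_ctr (ht : IsTransv p V H a) {w : G} (hw : w ∈ ctr V a) :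
    a * w = w * a :=
  commute_of_card_prime ht.card ht.pow (fun _ hw => ht.conj_ctr_mem hw) hw

theorem IsTransv.mem_chainStab (ht : IsTransv p V H a) : a ∈ chainStab V (ctr V a) := by
  refine ⟨?_, fun f hf => ?_⟩
  · rw [Subgroup.mem_centralizer_iff]
    intro w hw
    exact (ht.commute_ctr hw).symm
  · have := Subgroup.commutator_mem_commutator hf (Subgroup.mem_zpowers a)
    rw [commutatorElement_def] at this
    exact this

theorem IsTransv.comm_pow (ht : IsTransv p V H a) {v : G} (hv : v ∈ V) (n : ℕ) :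
    ⁅a ^ n, v⁆ = ⁅a, v⁆ ^ n :=
  comm_pow_left (ht.commute_ctr (comm_mem_ctr hv)) n

theorem IsTransv.conj (hs : Setup p V H K) (ht : IsTransv p V H a) {x : G} (hx : x ∈ H) :
    IsTransv p V H (x * a * x⁻¹) := by
  refine ⟨H.mul_mem (H.mul_mem hx ht.mem) (H.inv_mem hx), ?_, ?_⟩
  · rw [conj_pow, ht.pow]; group
  · rw [ctr_conj a (hs.norm hx), card_map_conj, ht.card]

theorem IsTransv.ne_one (ht : IsTransv p V H a) : a ≠ 1 := by
  have hpp : p.Prime := Fact.out
  intro h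
  have h1 := ht.card
  have h2 : ctr V a = ⊥ := by
    rw [h]
    show ⁅V, Subgroup.zpowers (1 : G)⁆ = ⊥
    rw [Subgroup.zpowers_one_eq_bot, Subgroup.commutator_bot_right]
  rw [h2, Subgroup.card_bot] at h1
  exact hpp.one_lt.ne h1

/-- **Key lemma.** If `x ∈ K` does not commute with the transvection `a`, then `a` centralizes no
nontrivial element of the centre of `x a x⁻¹`. -/
theorem IsTransv.eq_one_of_commute_conj (hs : Setup p V H K) (ht : IsTransv p V H a) {x : G}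
    (hx : x ∈ K) (hxa : x * a ≠ a * x) {w : G} (hw : w ∈ ctr V (x * a * x⁻¹))
    (hc : a * w = w * a) : w = 1 := by
  by_contra hw1
  have htb : IsTransv p V H (x * a * x⁻¹) := ht.conj hs (hs.KH hx)
  have hz := zpowers_eq_of_card_prime htb.card hw hw1
  have hab : ∀ w' ∈ ctr V (x * a * x⁻¹), a * w' = w' * a := by
    intro w' hw'
    rw [← hz] at hw'
    obtain ⟨k, rfl⟩ := Subgroup.mem_zpowers_iff.mp hw'
    exact ((show Commute a w from hc).zpow_right k).eq
  have hUV : ctr V a ⊔ ctr V (x * a * x⁻¹) ≤ V :=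
    sup_le (ctr_le (hs.norm ht.mem)) (ctr_le (hs.norm htb.mem))
  have ha_st : a ∈ chainStab V (ctr V a ⊔ ctr V (x * a * x⁻¹)) := by
    refine ⟨?_, fun f hf => ?_⟩
    · rw [mem_centralizer_sup]
      refine ⟨?_, ?_⟩
      · rw [Subgroup.mem_centralizer_iff]
        intro w' hw'
        exact (ht.commute_ctr hw').symm
      · rw [Subgroup.mem_centralizer_iff]
        intro w' hw'
        exact (hab w' hw').symm
    · exact (le_sup_left : ctr V a ≤ _) (ht.mem_chainStab.2 f hf)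
  have hbU : x * a * x⁻¹ ∈ Subgroup.normalizer
      ((ctr V a ⊔ ctr V (x * a * x⁻¹) : Subgroup G) : Set G) :=
    mem_normalizer_of_ctr_le hUV le_sup_right
  have hb_st := conj_mem_chainStab (hs.norm htb.mem) hbU ha_st
  have hg_st : (x * a * x⁻¹) * a * (x * a * x⁻¹)⁻¹ * a⁻¹ ∈
      chainStab V (ctr V a ⊔ ctr V (x * a * x⁻¹)) :=
    Subgroup.mul_mem _ hb_st (Subgroup.inv_mem _ ha_st)
  have hcK : ⁅x, a⁆ ∈ K := hs.comm_mem_K hx ht.mem
  have hgK : (x * a * x⁻¹) * a * (x * a * x⁻¹)⁻¹ * a⁻¹ ∈ K := by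
    have h1 : a * ⁅x, a⁆⁻¹ * a⁻¹ ∈ K :=
      conj_mem_of_mem_normalizer (hs.Knorm ht.mem) (K.inv_mem hcK)
    have h2 : (x * a * x⁻¹) * a * (x * a * x⁻¹)⁻¹ * a⁻¹ = ⁅x, a⁆ * (a * ⁅x, a⁆⁻¹ * a⁻¹) := by
      simp only [commutatorElement_def]; group
    rw [h2]
    exact K.mul_mem hcK h1
  have hg1 := hs.eq_one_of_mem_chainStab hUV hgK hg_st
  apply hxa
  apply hs.commute_of_commute_comm hx ht.mem ht.pow
  have h3 : (x * a * x⁻¹) * a = a * (x * a * x⁻¹) := by
    have h4 : (x * a * x⁻¹) * a * (x * a * x⁻¹)⁻¹ * a⁻¹ * (a * (x * a * x⁻¹)) =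
        (x * a * x⁻¹) * a := by group
    rw [← h4, hg1, one_mul]
  have h5 : x * a * x⁻¹ = ⁅x, a⁆ * a := by simp only [commutatorElement_def]; group
  rw [h5] at h3
  have h6 : a * ⁅x, a⁆ * a = ⁅x, a⁆ * a * a := by rw [h3, mul_assoc]
  exact mul_right_cancel h6

/-- symmetric form of the key lemma. -/
theorem IsTransv.eq_one_of_commute_conj' (hs : Setup p V H K) (ht : IsTransv p V H a) {x : G}
    (hx : x ∈ K) (hxa : x * a ≠ a * x) {w : G} (hw : w ∈ ctr V a)
    (hc : (x * a * x⁻¹) * w = w * (x * a * x⁻¹)) : w = 1 := by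
  have htb : IsTransv p V H (x * a * x⁻¹) := ht.conj hs (hs.KH hx)
  have e : x⁻¹ * (x * a * x⁻¹) * x⁻¹⁻¹ = a := by group
  have hx' : x⁻¹ * (x * a * x⁻¹) ≠ (x * a * x⁻¹) * x⁻¹ := by
    intro h
    apply hxa
    calc x * a = (x * a * x⁻¹ * x⁻¹) * (x * x) := by group
      _ = (x⁻¹ * (x * a * x⁻¹)) * (x * x) := by rw [h]
      _ = a * x := by group
  have key := htb.eq_one_of_commute_conj hs (K.inv_mem hx) hx' (w := w)
  rw [e] at key
  exact key hw hc

/-- the span of the centres of the `K`-conjugates of `a`. -/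
def spn (V K : Subgroup G) (a : G) : Subgroup G :=
  ⨆ x : K, ctr V ((x : G) * a * (x : G)⁻¹)

omit [Finite G] [Fact p.Prime] in
theorem ctr_le_spn {x : G} (hx : x ∈ K) : ctr V (x * a * x⁻¹) ≤ spn V K a :=
  le_iSup (fun x : K => ctr V ((x : G) * a * (x : G)⁻¹)) ⟨x, hx⟩

omit [Finite G] [Fact p.Prime] in
theorem ctr_self_le_spn : ctr V a ≤ spn V K a := by
  have h := ctr_le_spn (V := V) (K := K) (a := a) K.one_mem
  simpa using h

omit [Finite G] [Fact p.Prime] in
theorem spn_le (hs : Setup p V H K) (ha : a ∈ H) : spn V K a ≤ V := by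
  apply iSup_le
  intro x
  exact ctr_le (hs.norm (H.mul_mem (H.mul_mem (hs.KH x.2) ha) (H.inv_mem (hs.KH x.2))))

/-- every element of the span lies in the centre of a single `K`-conjugate of `a`. -/
theorem IsTransv.exists_of_mem_spn (hs : Setup p V H K) (ht : IsTransv p V H a) {w : G}
    (hw : w ∈ spn V K a) : ∃ x ∈ K, w ∈ ctr V (x * a * x⁻¹) := by
  refine Subgroup.iSup_induction (C := fun w => ∃ x ∈ K, w ∈ ctr V (x * a * x⁻¹))
    (fun x : K => ctr V ((x : G) * a * (x : G)⁻¹)) hw ?_ ?_ ?_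
  · rintro ⟨x, hx⟩ w hw
    exact ⟨x, hx, hw⟩
  · exact ⟨1, K.one_mem, Subgroup.one_mem _⟩
  · rintro u w ⟨x, hx, hu⟩ ⟨y, hy, hw⟩
    by_cases hu1 : u = 1
    · exact ⟨y, hy, by rw [hu1, one_mul]; exact hw⟩
    by_cases hcomm : (y⁻¹ * x) * a = a * (y⁻¹ * x)
    · have hde : x * a * x⁻¹ = y * a * y⁻¹ := by
        have h1 : x * a * x⁻¹ = y * ((y⁻¹ * x) * a) * x⁻¹ := by group
        rw [h1, hcomm]; group
      rw [hde] at hu
      exact ⟨y, hy, Subgroup.mul_mem _ hu hw⟩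
    · have hte : IsTransv p V H (y * a * y⁻¹) := ht.conj hs (hs.KH hy)
      have htd : IsTransv p V H (x * a * x⁻¹) := ht.conj hs (hs.KH hx)
      have hzK : x * y⁻¹ ∈ K := K.mul_mem hx (K.inv_mem hy)
      have hzd : (x * y⁻¹) * (y * a * y⁻¹) * (x * y⁻¹)⁻¹ = x * a * x⁻¹ := by group
      have hze : (x * y⁻¹) * (y * a * y⁻¹) ≠ (y * a * y⁻¹) * (x * y⁻¹) := by
        intro h
        apply hcomm
        have h1 : (y⁻¹ * x) * a = y⁻¹ * ((x * y⁻¹) * (y * a * y⁻¹)) * y := by group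
        rw [h1, h]; group
      have huV : u ∈ V := ctr_le (hs.norm htd.mem) hu
      have hne : ⁅y * a * y⁻¹, u⁆ ≠ 1 := by
        intro h
        rw [comm_eq_one_iff] at h
        apply hu1
        have key := hte.eq_one_of_commute_conj hs hzK hze (w := u)
        rw [hzd] at key
        exact key hu h
      obtain ⟨k, hk⟩ := exists_pow_of_card_prime hte.card (comm_mem_ctr huV) hne hw
      have hwV : w ∈ V := ctr_le (hs.norm hte.mem) hw
      have h2 : u * w = (y * a * y⁻¹) ^ k * u * ((y * a * y⁻¹) ^ k)⁻¹ := by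
        rw [conj_eq_comm_mul, hte.comm_pow huV, ← hk]
        exact hs.comm u huV w hwV
      have hak : a ^ k ∈ H := H.pow_mem ht.mem k
      have hz'K : y * (a ^ k * (y⁻¹ * x) * (a ^ k)⁻¹) ∈ K :=
        K.mul_mem hy (conj_mem_of_mem_normalizer (hs.Knorm hak)
          (K.mul_mem (K.inv_mem hy) hx))
      refine ⟨y * (a ^ k * (y⁻¹ * x) * (a ^ k)⁻¹), hz'K, ?_⟩
      have h3 : (y * (a ^ k * (y⁻¹ * x) * (a ^ k)⁻¹)) * a * (y * (a ^ k * (y⁻¹ * x) * (a ^ k)⁻¹))⁻¹
          = (y * a * y⁻¹) ^ k * (x * a * x⁻¹) * ((y * a * y⁻¹) ^ k)⁻¹ := by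
        rw [conj_pow]; group
      rw [h3, h2]
      exact conj_mem_ctr_conj (hs.norm (H.pow_mem hte.mem k)) hu

/-- invariance of the span under elements of `H` permuting the `K`-conjugates of `a`. -/
theorem IsTransv.conj_mem_spn (hs : Setup p V H K) (ht : IsTransv p V H a) {g : G} (hg : g ∈ H)
    (hD : ∀ x ∈ K, ∃ y ∈ K, g * (x * a * x⁻¹) * g⁻¹ = y * a * y⁻¹) {w : G}
    (hw : w ∈ spn V K a) : g * w * g⁻¹ ∈ spn V K a := by
  obtain ⟨x, hx, hw'⟩ := ht.exists_of_mem_spn hs hw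
  obtain ⟨y, hy, e⟩ := hD x hx
  have h1 := conj_mem_ctr_conj (x := g) (hs.norm hg) hw'
  rw [e] at h1
  exact ctr_le_spn hy h1

theorem IsTransv.conj_mem_spn_of_mem_K (hs : Setup p V H K) (ht : IsTransv p V H a) {g : G}
    (hg : g ∈ K) {w : G} (hw : w ∈ spn V K a) : g * w * g⁻¹ ∈ spn V K a :=
  ht.conj_mem_spn hs (hs.KH hg) (fun x hx => ⟨g * x, K.mul_mem hg hx, by group⟩) hw

theorem IsTransv.conj_mem_spn_of_commute (hs : Setup p V H K) (ht : IsTransv p V H a) {g : G}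
    (hg : g ∈ H) (hga : g * a = a * g) {w : G} (hw : w ∈ spn V K a) :
    g * w * g⁻¹ ∈ spn V K a := by
  refine ht.conj_mem_spn hs hg (fun x hx => ⟨g * x * g⁻¹, ?_, ?_⟩) hw
  · exact conj_mem_of_mem_normalizer (hs.Knorm hg) hx
  · have h1 : g * (x * a * x⁻¹) * g⁻¹ = g * x * g⁻¹ * (g * a) * g⁻¹ * (g * x * g⁻¹)⁻¹ := by group
    rw [h1, hga]; group

theorem IsTransv.mem_normalizer_spn_of_mem_K (hs : Setup p V H K) (ht : IsTransv p V H a) {g : G}
    (hg : g ∈ K) : g ∈ Subgroup.normalizer ((spn V K a : Subgroup G) : Set G) := by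
  rw [Subgroup.mem_normalizer_iff]
  intro w
  refine ⟨fun hw => ht.conj_mem_spn_of_mem_K hs hg hw, fun hw => ?_⟩
  have h1 := ht.conj_mem_spn_of_mem_K hs (K.inv_mem hg) hw
  have h2 : g⁻¹ * (g * w * g⁻¹) * g⁻¹⁻¹ = w := by group
  rwa [h2] at h1

theorem IsTransv.mem_normalizer_spn_of_commute (hs : Setup p V H K) (ht : IsTransv p V H a) {g : G}
    (hg : g ∈ H) (hga : g * a = a * g) :
    g ∈ Subgroup.normalizer ((spn V K a : Subgroup G) : Set G) := by
  rw [Subgroup.mem_normalizer_iff]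
  intro w
  refine ⟨fun hw => ht.conj_mem_spn_of_commute hs hg hga hw, fun hw => ?_⟩
  have hga' : g⁻¹ * a = a * g⁻¹ := by
    have h1 : g⁻¹ * a = g⁻¹ * (a * g) * g⁻¹ := by group
    rw [h1, ← hga]; group
  have h1 := ht.conj_mem_spn_of_commute hs (H.inv_mem hg) hga' hw
  have h2 : g⁻¹ * (g * w * g⁻¹) * g⁻¹⁻¹ = w := by group
  rwa [h2] at h1

/-- the fixed points of `a` in the span are just the centre of `a`. -/
theorem IsTransv.mem_ctr_of_mem_spn_of_commute (hs : Setup p V H K) (ht : IsTransv p V H a)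
    {w : G} (hw : w ∈ spn V K a) (hc : a * w = w * a) : w ∈ ctr V a := by
  obtain ⟨x, hx, hw'⟩ := ht.exists_of_mem_spn hs hw
  by_cases hxa : x * a = a * x
  · have h1 : x * a * x⁻¹ = a := by rw [hxa, mul_inv_cancel_right]
    rwa [h1] at hw'
  · rw [ht.eq_one_of_commute_conj hs hx hxa hw' hc]
    exact Subgroup.one_mem _

theorem IsTransv.card_spn (hs : Setup p V H K) (ht : IsTransv p V H a)
    (hna : ∃ x ∈ K, x * a ≠ a * x) : Nat.card (spn V K a) = p ^ 2 := by
  have hpp : p.Prime := Fact.out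
  apply le_antisymm
  · have h1 := card_le_fix_mul_ctr hs.comm (hs.norm ht.mem) (spn V K a) (spn_le hs ht.mem)
    have h2 : spn V K a ⊓ Subgroup.centralizer ({a} : Set G) ≤ ctr V a := by
      rintro w ⟨hw, hwc⟩
      exact ht.mem_ctr_of_mem_spn_of_commute hs hw (mem_centralizer_singleton_iff.mp hwc)
    have h3 := Subgroup.card_le_of_le h2
    rw [ht.card] at h1 h3
    calc Nat.card (spn V K a) ≤ _ := h1
      _ ≤ p * p := Nat.mul_le_mul_right _ h3
      _ = p ^ 2 := (sq p).symm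
  · obtain ⟨x, hx, hxa⟩ := hna
    have htb : IsTransv p V H (x * a * x⁻¹) := ht.conj hs (hs.KH hx)
    have hinf : ctr V a ⊓ ctr V (x * a * x⁻¹) = ⊥ := by
      rw [eq_bot_iff]
      rintro w ⟨hw1, hw2⟩
      rw [Subgroup.mem_bot]
      exact ht.eq_one_of_commute_conj hs hx hxa hw2 (ht.commute_ctr hw1)
    have hcomm : ∀ u ∈ ctr V a, ∀ v ∈ ctr V (x * a * x⁻¹), u * v = v * u := fun u hu v hv =>
      hs.comm u (ctr_le (hs.norm ht.mem) hu) v (ctr_le (hs.norm htb.mem) hv)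
    have h1 := card_sup_of_comm_of_inf_eq_bot hcomm hinf
    rw [ht.card, htb.card] at h1
    have h2 : ctr V a ⊔ ctr V (x * a * x⁻¹) ≤ spn V K a :=
      sup_le ctr_self_le_spn (ctr_le_spn hx)
    have h3 := Subgroup.card_le_of_le h2
    rw [h1] at h3
    rw [sq]; exact h3

end transv

end Cfsg.Agent.Lib.Helper11.FF
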