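import Mathlib
import Cfsg.Agent.Lib.Helper11.FFTransv
import Cfsg.Agent.S0055

/-!
The subgroup `E = [K, a] ⟨a⟩` attached to a transvection `a`: its commutator on `V` is a plane,
`V = [V, E] × C_V(E)`, `E` is faithful on the plane, and two such subgroups are equal or commute.
-/

set_option autoImplicit false

namespace Cfsg.Agent.Lib.Helper11.FF

open scoped commutatorElement
open Cfsg.Agent.Lib.Helper47 Cfsg.Agent.Lib.Helper34

variable {G : Type*} [Group G]

/-- `[K, ⟨a⟩]`. -/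
abbrev QQ (K : Subgroup G) (a : G) : Subgroup G := ⁅K, Subgroup.zpowers a⁆

/-- `[K, ⟨a⟩] ⟨a⟩`. -/
abbrev EE (K : Subgroup G) (a : G) : Subgroup G := ⁅K, Subgroup.zpowers a⁆ ⊔ Subgroup.zpowers a

section basic

variable {p : ℕ} {V H K : Subgroup G} {a : G}

theorem QQ_le_K (hs : Setup p V H K) (ha : a ∈ H) : QQ K a ≤ K :=
  commutator_le_of_le_normalizer (Subgroup.zpowers_le.mpr (hs.Knorm ha)) le_rfl

theorem QQ_le_EE : QQ K a ≤ EE K a := le_sup_left

theorem self_mem_EE : a ∈ EE K a := (le_sup_right : Subgroup.zpowers a ≤ _) (Subgroup.mem_zpowers a)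

theorem comm_mem_QQ {x : G} (hx : x ∈ K) : ⁅x, a⁆ ∈ QQ K a :=
  Subgroup.commutator_mem_commutator hx (Subgroup.mem_zpowers a)

theorem conj_mem_EE {x : G} (hx : x ∈ K) : x * a * x⁻¹ ∈ EE K a := by
  have h : x * a * x⁻¹ = ⁅x, a⁆ * a := by simp only [commutatorElement_def]; group
  rw [h]
  exact Subgroup.mul_mem _ (QQ_le_EE (comm_mem_QQ hx)) self_mem_EE

theorem conj_mem_QQ_of_mem_K {x q : G} (hx : x ∈ K) (hq : q ∈ QQ K a) : x * q * x⁻¹ ∈ QQ K a :=
  conj_mem_commutator_left K (Subgroup.zpowers a) hx hq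

theorem conj_mem_QQ_self {q : G} (hq : q ∈ QQ K a) : a * q * a⁻¹ ∈ QQ K a :=
  conj_mem_commutator_right K (Subgroup.zpowers a) (Subgroup.mem_zpowers a) hq

theorem EE_le_H (hs : Setup p V H K) (ha : a ∈ H) : EE K a ≤ H :=
  sup_le ((QQ_le_K hs ha).trans hs.KH) (Subgroup.zpowers_le.mpr ha)

theorem conj_mem_EE_of_mem_K {x g : G} (hx : x ∈ K) (hg : g ∈ EE K a) :
    x * g * x⁻¹ ∈ EE K a := by
  have h : EE K a ≤ (EE K a).comap (MulAut.conj x).toMonoidHom := by
    apply sup_le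
    · intro q hq
      exact QQ_le_EE (conj_mem_QQ_of_mem_K hx hq)
    · rw [Subgroup.zpowers_le]
      exact conj_mem_EE hx
  exact h hg

/-- a subgroup containing all `K`-conjugates of `a` contains `E`. -/
theorem EE_le_of_conj_mem [Finite G] {T : Subgroup G} (h : ∀ x ∈ K, x * a * x⁻¹ ∈ T) :
    EE K a ≤ T := by
  have ha : a ∈ T := by
    have := h 1 K.one_mem
    simpa using this
  apply sup_le
  · rw [Subgroup.commutator_le]
    intro x hx g hg
    obtain ⟨n, rfl⟩ := mem_powers_iff_mem_zpowers.mpr hg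
    have h1 : ⁅x, a ^ n⁆ = (x * a * x⁻¹) ^ n * (a ^ n)⁻¹ := by
      rw [conj_pow, commutatorElement_def]
    rw [h1]
    exact T.mul_mem (T.pow_mem (h x hx) n) (T.inv_mem (T.pow_mem ha n))
  · exact Subgroup.zpowers_le.mpr ha

end basic

section struct

variable [Finite G] {p : ℕ} [Fact p.Prime] {V H K : Subgroup G} {a : G}

theorem IsTransv.commutator_EE (hs : Setup p V H K) (ht : IsTransv p V H a) :
    ⁅V, EE K a⁆ = spn V K a := by
  apply le_antisymm
  · have hS := spn_le hs ht.mem (K := K)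
    have h1 : EE K a ≤ commStab V (spn V K a) hS := by
      apply EE_le_of_conj_mem
      intro x hx
      refine ⟨hs.norm (H.mul_mem (H.mul_mem (hs.KH hx) ht.mem) (H.inv_mem (hs.KH hx))), ?_⟩
      intro v hv
      exact ctr_le_spn hx (Subgroup.commutator_mem_commutator hv (Subgroup.mem_zpowers _))
    rw [Subgroup.commutator_le]
    intro v hv g hg
    exact (h1 hg).2 v hv
  · apply iSup_le
    intro x
    exact Subgroup.commutator_mono le_rfl (Subgroup.zpowers_le.mpr (conj_mem_EE x.2))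

theorem IsTransv.not_forall_commute (hs : Setup p V H K) (ht : IsTransv p V H a)
    (hna : ∃ x ∈ K, x * a ≠ a * x) {x : G} (hx : x ∈ K) :
    ¬ ∀ q ∈ QQ K a, q * (x * a * x⁻¹) = (x * a * x⁻¹) * q := by
  intro h
  obtain ⟨x₀, hx₀, hx₀a⟩ := hna
  apply hx₀a
  apply hs.commute_of_commute_comm hx₀ ht.mem ht.pow
  have hq : ⁅x₀, a⁆ ∈ QQ K a := comm_mem_QQ hx₀
  have h1 := h _ (conj_mem_QQ_of_mem_K hx hq)
  have h2 : ⁅x₀, a⁆ * a = x⁻¹ * (x * ⁅x₀, a⁆ * x⁻¹ * (x * a * x⁻¹)) * x := by group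
  rw [h2, h1]; group

/-- `[K, a]` acts irreducibly on the span. -/
theorem IsTransv.spn_irred (hs : Setup p V H K) (ht : IsTransv p V H a)
    (hna : ∃ x ∈ K, x * a ≠ a * x) {u : G} (hu : u ∈ spn V K a) (hu1 : u ≠ 1) :
    ¬ ∀ q ∈ QQ K a, q * u * q⁻¹ ∈ Subgroup.zpowers u := by
  intro h
  obtain ⟨x, hx, hux⟩ := ht.exists_of_mem_spn hs hu
  have hte : IsTransv p V H (x * a * x⁻¹) := ht.conj hs (hs.KH hx)
  have hz := zpowers_eq_of_card_prime hte.card hux hu1
  apply ht.not_forall_commute hs hna hx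
  intro q hq
  by_contra hqe
  have hqK : q ∈ K := QQ_le_K hs ht.mem hq
  have h1 : q * u * q⁻¹ ∈ ctr V (q * (x * a * x⁻¹) * q⁻¹) :=
    conj_mem_ctr_conj (hs.norm (hs.KH hqK)) hux
  have h2 : q * u * q⁻¹ ∈ ctr V (x * a * x⁻¹) := by rw [← hz]; exact h q hq
  have h3 := hte.eq_one_of_commute_conj hs hqK hqe h1 (hte.commute_ctr h2)
  apply hu1
  have h4 : u = q⁻¹ * (q * u * q⁻¹) * q := by group
  rw [h4, h3]; group

theorem IsTransv.spn_inf_centralizer_QQ (hs : Setup p V H K) (ht : IsTransv p V H a)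
    (hna : ∃ x ∈ K, x * a ≠ a * x) :
    spn V K a ⊓ Subgroup.centralizer (QQ K a : Set G) = ⊥ := by
  rw [eq_bot_iff]
  rintro u ⟨hu, huc⟩
  rw [Subgroup.mem_bot]
  by_contra hu1
  apply ht.spn_irred hs hna hu hu1
  intro q hq
  have h1 : q * u = u * q := (Subgroup.mem_centralizer_iff.mp huc q hq)
  have h2 : q * u * q⁻¹ = u := by rw [h1, mul_inv_cancel_right]
  rw [h2]
  exact Subgroup.mem_zpowers u

theorem Setup.coprime_card_of_le (hs : Setup p V H K) {Q U : Subgroup G} (hQ : Q ≤ K)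
    (hU : U ≤ V) : (Nat.card Q).Coprime (Nat.card U) := by
  obtain ⟨n, hn⟩ := (IsPGroup.iff_card).mp (hs.isPGroup_of_le hU)
  rw [hn]
  apply Nat.Coprime.pow_right
  exact Nat.Coprime.coprime_dvd_left (Subgroup.card_dvd_of_le hQ) hs.Kcop

theorem IsTransv.commutator_QQ (hs : Setup p V H K) (ht : IsTransv p V H a)
    (hna : ∃ x ∈ K, x * a ≠ a * x) : ⁅V, QQ K a⁆ = spn V K a := by
  have hS := spn_le hs ht.mem (K := K)
  apply le_antisymm
  · rw [← ht.commutator_EE hs]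
    exact Subgroup.commutator_mono le_rfl QQ_le_EE
  · haveI : IsMulCommutative (spn V K a) :=
      ⟨⟨fun x y => Subtype.ext (hs.comm _ (hS x.2) _ (hS y.2))⟩⟩
    have hQS : QQ K a ≤ Subgroup.normalizer ((spn V K a : Subgroup G) : Set G) :=
      fun q hq => ht.mem_normalizer_spn_of_mem_K hs (QQ_le_K hs ht.mem hq)
    have h1 := (Cfsg.Agent.S0055.result (QQ K a) (spn V K a) hQS
      (hs.coprime_card_of_le (QQ_le_K hs ht.mem) hS)).2
    rw [ht.spn_inf_centralizer_QQ hs hna, bot_sup_eq] at h1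
    rw [← h1]
    exact Subgroup.commutator_mono hS le_rfl

theorem IsTransv.spn_inf_fix (hs : Setup p V H K) (ht : IsTransv p V H a)
    (hna : ∃ x ∈ K, x * a ≠ a * x) :
    spn V K a ⊓ (V ⊓ Subgroup.centralizer (QQ K a : Set G)) = ⊥ := by
  rw [eq_bot_iff, ← ht.spn_inf_centralizer_QQ hs hna]
  exact inf_le_inf_left _ inf_le_right

theorem IsTransv.spn_sup_fix (hs : Setup p V H K) (ht : IsTransv p V H a)
    (hna : ∃ x ∈ K, x * a ≠ a * x) :
    spn V K a ⊔ (V ⊓ Subgroup.centralizer (QQ K a : Set G)) = V := by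
  haveI : IsMulCommutative V := ⟨⟨fun x y => Subtype.ext (hs.comm _ x.2 _ y.2)⟩⟩
  have hQV : QQ K a ≤ Subgroup.normalizer (V : Set G) :=
    ((QQ_le_K hs ht.mem).trans hs.KH).trans hs.norm
  have h1 := (Cfsg.Agent.S0055.result (QQ K a) V hQV
    (hs.coprime_card_of_le (QQ_le_K hs ht.mem) le_rfl)).2
  rw [ht.commutator_QQ hs hna, sup_comm] at h1
  exact h1

theorem conj_mem_centralizer_of_mem_normalizer {Q : Subgroup G} {g v : G}
    (hg : g ∈ Subgroup.normalizer (Q : Set G)) (hv : v ∈ Subgroup.centralizer (Q : Set G)) :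
    g * v * g⁻¹ ∈ Subgroup.centralizer (Q : Set G) := by
  rw [Subgroup.mem_centralizer_iff] at hv ⊢
  intro q hq
  have h1 := hv _ (conj_inv_mem_of_mem_normalizer hg hq)
  calc q * (g * v * g⁻¹) = g * ((g⁻¹ * q * g) * v) * g⁻¹ := by group
    _ = g * (v * (g⁻¹ * q * g)) * g⁻¹ := by rw [h1]
    _ = g * v * g⁻¹ * q := by group

theorem IsTransv.mem_normalizer_QQ (_ht : IsTransv p V H a) :
    a ∈ Subgroup.normalizer ((QQ K a : Subgroup G) : Set G) :=
  le_normalizer_commutator_right K (Subgroup.zpowers a) (Subgroup.mem_zpowers a)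

/-- `a` centralizes `C_V([K, a])`. -/
theorem IsTransv.commute_of_mem_fix (hs : Setup p V H K) (ht : IsTransv p V H a)
    (hna : ∃ x ∈ K, x * a ≠ a * x) {v : G}
    (hv : v ∈ V ⊓ Subgroup.centralizer (QQ K a : Set G)) : a * v = v * a := by
  have h1 : ⁅a, v⁆ ∈ spn V K a := ctr_self_le_spn (comm_mem_ctr hv.1)
  have h2 : ⁅a, v⁆ ∈ V ⊓ Subgroup.centralizer (QQ K a : Set G) := by
    rw [commutatorElement_def]
    refine Subgroup.mul_mem _ ⟨conj_mem_of_mem_normalizer (hs.norm ht.mem) hv.1, ?_⟩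
      (Subgroup.inv_mem _ hv)
    exact conj_mem_centralizer_of_mem_normalizer ht.mem_normalizer_QQ hv.2
  have h3 : ⁅a, v⁆ ∈ spn V K a ⊓ (V ⊓ Subgroup.centralizer (QQ K a : Set G)) := ⟨h1, h2⟩
  rw [ht.spn_inf_fix hs hna, Subgroup.mem_bot, comm_eq_one_iff] at h3
  exact h3

theorem IsTransv.fix_EE_eq (hs : Setup p V H K) (ht : IsTransv p V H a)
    (hna : ∃ x ∈ K, x * a ≠ a * x) :
    V ⊓ Subgroup.centralizer (EE K a : Set G) = V ⊓ Subgroup.centralizer (QQ K a : Set G) := by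
  apply le_antisymm
  · exact inf_le_inf_left _ (Subgroup.centralizer_le (by exact_mod_cast (QQ_le_EE : QQ K a ≤ EE K a)))
  · intro v hv
    refine ⟨hv.1, ?_⟩
    show v ∈ Subgroup.centralizer ((QQ K a ⊔ Subgroup.zpowers a : Subgroup G) : Set G)
    rw [mem_centralizer_sup]
    refine ⟨hv.2, ?_⟩
    rw [centralizer_zpowers, mem_centralizer_singleton_iff]
    exact ht.commute_of_mem_fix hs hna hv

theorem IsTransv.spn_inf_fix_EE (hs : Setup p V H K) (ht : IsTransv p V H a)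
    (hna : ∃ x ∈ K, x * a ≠ a * x) :
    spn V K a ⊓ (V ⊓ Subgroup.centralizer (EE K a : Set G)) = ⊥ := by
  rw [ht.fix_EE_eq hs hna]; exact ht.spn_inf_fix hs hna

theorem IsTransv.spn_sup_fix_EE (hs : Setup p V H K) (ht : IsTransv p V H a)
    (hna : ∃ x ∈ K, x * a ≠ a * x) :
    spn V K a ⊔ (V ⊓ Subgroup.centralizer (EE K a : Set G)) = V := by
  rw [ht.fix_EE_eq hs hna]; exact ht.spn_sup_fix hs hna

/-- an element of `H` commuting with the span and with `C_V(E)` is trivial. -/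
theorem IsTransv.eq_one_of_commute_spn_fix (hs : Setup p V H K) (ht : IsTransv p V H a)
    (hna : ∃ x ∈ K, x * a ≠ a * x) {g : G} (hg : g ∈ H)
    (h1 : ∀ s ∈ spn V K a, g * s = s * g)
    (h2 : ∀ v ∈ V ⊓ Subgroup.centralizer (QQ K a : Set G), g * v = v * g) : g = 1 := by
  apply hs.eq_one_of_forall_commute hg
  have h3 : spn V K a ⊔ (V ⊓ Subgroup.centralizer (QQ K a : Set G)) ≤
      Subgroup.centralizer ({g} : Set G) := by
    apply sup_le
    · intro s hs'
      rw [mem_centralizer_singleton_iff]; exact h1 s hs'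
    · intro v hv
      rw [mem_centralizer_singleton_iff]; exact h2 v hv
  rw [ht.spn_sup_fix hs hna] at h3
  intro v hv
  exact mem_centralizer_singleton_iff.mp (h3 hv)

theorem IsTransv.EE_inf_centralizer_spn (hs : Setup p V H K) (ht : IsTransv p V H a)
    (hna : ∃ x ∈ K, x * a ≠ a * x) :
    EE K a ⊓ Subgroup.centralizer (spn V K a : Set G) = ⊥ := by
  rw [eq_bot_iff]
  rintro g ⟨hg, hgc⟩
  rw [Subgroup.mem_bot]
  apply ht.eq_one_of_commute_spn_fix hs hna (EE_le_H hs ht.mem hg)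
  · intro s hs'
    exact (Subgroup.mem_centralizer_iff.mp hgc s hs').symm
  · intro v hv
    rw [← ht.fix_EE_eq hs hna] at hv
    exact Subgroup.mem_centralizer_iff.mp hv.2 g hg

end struct

end Cfsg.Agent.Lib.Helper11.FF
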