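import Mathlib
import Cfsg.Agent.Lib.Helper11.FFStruct

/-!
The dichotomy for two transvections `a, b`: the subgroups `E_a = [K, a]⟨a⟩` and `E_b` are equal
or commute elementwise (with each plane centralized by the other subgroup).
-/

set_option autoImplicit false

namespace Cfsg.Agent.Lib.Helper11.FF

open scoped commutatorElement
open Cfsg.Agent.Lib.Helper47 Cfsg.Agent.Lib.Helper34

variable {G : Type*} [Group G]

section dich

variable [Finite G] {p : ℕ} [Fact p.Prime] {V H K : Subgroup G} {a b : G}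

omit [Finite G] [Fact p.Prime] in
theorem spn_conj {x : G} (hx : x ∈ K) : spn V K (x * a * x⁻¹) = spn V K a := by
  apply le_antisymm
  · apply iSup_le
    intro y
    have h : (y : G) * (x * a * x⁻¹) * (y : G)⁻¹ = (y * x) * a * (y * x)⁻¹ := by group
    rw [h]
    exact ctr_le_spn (K.mul_mem y.2 hx)
  · apply iSup_le
    intro y
    have h : (y : G) * a * (y : G)⁻¹ = (y * x⁻¹) * (x * a * x⁻¹) * (y * x⁻¹)⁻¹ := by group
    rw [h]
    exact ctr_le_spn (K.mul_mem y.2 (K.inv_mem hx))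

theorem IsTransv.spn_inf_or_le (hs : Setup p V H K) (hta : IsTransv p V H a)
    (htb : IsTransv p V H b) (hna : ∃ x ∈ K, x * a ≠ a * x) :
    spn V K a ⊓ spn V K b = ⊥ ∨ spn V K a ≤ spn V K b := by
  have hpp : p.Prime := Fact.out
  by_contra hcon
  push Not at hcon
  obtain ⟨h1, h2⟩ := hcon
  have hcard := hta.card_spn hs hna
  have hdvd : Nat.card ↥(spn V K a ⊓ spn V K b) ∣ p ^ 2 := by
    rw [← hcard]; exact Subgroup.card_dvd_of_le inf_le_left
  obtain ⟨m, hm, hmc⟩ := (Nat.dvd_prime_pow hpp).mp hdvd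
  have hm' : m = 0 ∨ m = 1 ∨ m = 2 := by omega
  rcases hm' with rfl | rfl | rfl
  · rw [pow_zero, Subgroup.card_eq_one] at hmc
    exact h1 hmc
  · rw [pow_one] at hmc
    obtain ⟨u, hu, hu1⟩ := exists_ne_one_of_card_prime hmc
    have hz := zpowers_eq_of_card_prime hmc hu hu1
    apply hta.spn_irred hs hna hu.1 hu1
    intro q hq
    rw [hz]
    have hqK := QQ_le_K hs hta.mem hq
    exact ⟨hta.conj_mem_spn_of_mem_K hs hqK hu.1, htb.conj_mem_spn_of_mem_K hs hqK hu.2⟩
  · apply h2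
    have h3 : spn V K a ⊓ spn V K b = spn V K a :=
      Subgroup.eq_of_le_of_card_ge inf_le_left (by rw [hmc, hcard])
    rw [← h3]
    exact inf_le_right

theorem IsTransv.fix_le_fix_of_spn_eq (hs : Setup p V H K) (hta : IsTransv p V H a)
    (htb : IsTransv p V H b) (hna : ∃ x ∈ K, x * a ≠ a * x) (hnb : ∃ x ∈ K, x * b ≠ b * x)
    (hSS : spn V K a = spn V K b) :
    V ⊓ Subgroup.centralizer (QQ K a : Set G) ≤ V ⊓ Subgroup.centralizer (QQ K b : Set G) := by
  intro v hv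
  refine ⟨hv.1, ?_⟩
  show v ∈ Subgroup.centralizer (QQ K b : Set G)
  rw [Subgroup.mem_centralizer_iff]
  intro q hq
  have hqK : q ∈ K := QQ_le_K hs htb.mem hq
  have h1 : ⁅q, v⁆ ∈ spn V K a := by
    have h2 : ⁅v, q⁆ ∈ ⁅V, QQ K b⁆ := Subgroup.commutator_mem_commutator hv.1 hq
    rw [htb.commutator_QQ hs hnb, ← hSS] at h2
    have h3 : ⁅q, v⁆ = ⁅v, q⁆⁻¹ := (commutatorElement_inv v q).symm
    rw [h3]; exact Subgroup.inv_mem _ h2
  have h2 : ⁅q, v⁆ ∈ V ⊓ Subgroup.centralizer (QQ K a : Set G) := by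
    rw [commutatorElement_def]
    refine Subgroup.mul_mem _ ⟨conj_mem_of_mem_normalizer (hs.norm (hs.KH hqK)) hv.1, ?_⟩
      (Subgroup.inv_mem _ hv)
    exact conj_mem_centralizer_of_mem_normalizer
      (le_normalizer_commutator_left K (Subgroup.zpowers a) hqK) hv.2
  have h3 : ⁅q, v⁆ ∈ spn V K a ⊓ (V ⊓ Subgroup.centralizer (QQ K a : Set G)) := ⟨h1, h2⟩
  rw [hta.spn_inf_fix hs hna, Subgroup.mem_bot, comm_eq_one_iff] at h3
  exact h3

theorem IsTransv.EE_le_of_spn_eq (hs : Setup p V H K) (hta : IsTransv p V H a)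
    (htb : IsTransv p V H b) (hna : ∃ x ∈ K, x * a ≠ a * x) (hnb : ∃ x ∈ K, x * b ≠ b * x)
    (hSS : spn V K a = spn V K b) : EE K a ≤ EE K b := by
  have hpp : p.Prime := Fact.out
  obtain ⟨w₀, hw₀, hw₀1⟩ := exists_ne_one_of_card_prime hta.card
  have hw₀S : w₀ ∈ spn V K b := by rw [← hSS]; exact ctr_self_le_spn hw₀
  obtain ⟨x, hx, hw₀e⟩ := htb.exists_of_mem_spn hs hw₀S
  have hte : IsTransv p V H (x * b * x⁻¹) := htb.conj hs (hs.KH hx)
  have hctr : ctr V (x * b * x⁻¹) = ctr V a := by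
    rw [← zpowers_eq_of_card_prime hte.card hw₀e hw₀1, zpowers_eq_of_card_prime hta.card hw₀ hw₀1]
  have hex : ∃ u ∈ spn V K a, u ∉ ctr V a := by
    by_contra hcon
    push Not at hcon
    have h1 : spn V K a ≤ ctr V a := hcon
    have h2 := Subgroup.card_le_of_le h1
    rw [hta.card_spn hs hna, hta.card] at h2
    have := hpp.one_lt
    nlinarith
  obtain ⟨u, hu, huc⟩ := hex
  have huV : u ∈ V := spn_le hs hta.mem hu
  have hne : ⁅x * b * x⁻¹, u⁆ ≠ 1 := by
    intro h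
    rw [comm_eq_one_iff] at h
    apply huc
    rw [← hctr]
    apply hte.mem_ctr_of_mem_spn_of_commute hs _ h
    rw [spn_conj hx, ← hSS]; exact hu
  have h1 : ⁅a, u⁆ ∈ ctr V (x * b * x⁻¹) := by rw [hctr]; exact comm_mem_ctr huV
  obtain ⟨k, hk⟩ := exists_pow_of_card_prime hte.card (comm_mem_ctr huV) hne h1
  rw [← hte.comm_pow huV k] at hk
  have heE : x * b * x⁻¹ ∈ EE K b := conj_mem_EE hx
  have hu1 : u ≠ 1 := fun h => huc (h ▸ Subgroup.one_mem _)
  have horder : orderOf u = p := orderOf_eq_prime (hs.exp u huV) hu1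
  have hSeq : spn V K a = ctr V a ⊔ Subgroup.zpowers u := by
    symm
    apply Subgroup.eq_of_le_of_card_ge (sup_le ctr_self_le_spn (Subgroup.zpowers_le.mpr hu))
    have hinf : ctr V a ⊓ Subgroup.zpowers u = ⊥ := by
      rw [eq_bot_iff]
      rintro y ⟨hy1, hy2⟩
      rw [Subgroup.mem_bot]
      by_contra hy
      have hc : Nat.card (Subgroup.zpowers u) = p := by rw [Nat.card_zpowers, horder]
      have hz := zpowers_eq_of_card_prime hc hy2 hy
      apply huc
      have : u ∈ Subgroup.zpowers y := by rw [hz]; exact Subgroup.mem_zpowers u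
      exact (Subgroup.zpowers_le.mpr hy1) this
    have hcomm : ∀ w ∈ ctr V a, ∀ z ∈ Subgroup.zpowers u, w * z = z * w := fun w hw z hz =>
      hs.comm _ (ctr_le (hs.norm hta.mem) hw) _ (Subgroup.zpowers_le.mpr huV hz)
    rw [card_sup_of_comm_of_inf_eq_bot hcomm hinf, hta.card, Nat.card_zpowers, horder,
      hta.card_spn hs hna, sq]
  have hg : ((x * b * x⁻¹) ^ k)⁻¹ * a = 1 := by
    apply hta.eq_one_of_commute_spn_fix hs hna
      (H.mul_mem (H.inv_mem (H.pow_mem hte.mem k)) hta.mem)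
    · intro s hs'
      rw [hSeq] at hs'
      have h3 : ctr V a ⊔ Subgroup.zpowers u ≤
          Subgroup.centralizer ({((x * b * x⁻¹) ^ k)⁻¹ * a} : Set G) := by
        apply sup_le
        · intro w hw
          rw [mem_centralizer_singleton_iff]
          have c1 : a * w = w * a := hta.commute_ctr hw
          have c2 : (x * b * x⁻¹) * w = w * (x * b * x⁻¹) :=
            hte.commute_ctr (by rw [hctr]; exact hw)
          have c3 : Commute ((x * b * x⁻¹) ^ k)⁻¹ w :=
            ((show Commute (x * b * x⁻¹) w from c2).pow_left k).inv_left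
          calc ((x * b * x⁻¹) ^ k)⁻¹ * a * w = ((x * b * x⁻¹) ^ k)⁻¹ * (w * a) := by
                rw [mul_assoc, c1]
            _ = w * (((x * b * x⁻¹) ^ k)⁻¹ * a) := by rw [← mul_assoc, c3.eq, mul_assoc]
        · rw [Subgroup.zpowers_le, mem_centralizer_singleton_iff]
          have c1 : a * u * a⁻¹ = (x * b * x⁻¹) ^ k * u * ((x * b * x⁻¹) ^ k)⁻¹ := by
            rw [conj_eq_comm_mul, conj_eq_comm_mul, hk]
          calc ((x * b * x⁻¹) ^ k)⁻¹ * a * u = ((x * b * x⁻¹) ^ k)⁻¹ * (a * u * a⁻¹) * a := by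
                group
            _ = u * (((x * b * x⁻¹) ^ k)⁻¹ * a) := by rw [c1]; group
      exact mem_centralizer_singleton_iff.mp (h3 hs')
    · intro v hv
      have c1 : a * v = v * a := hta.commute_of_mem_fix hs hna hv
      have hv' := hta.fix_le_fix_of_spn_eq hs htb hna hnb hSS hv
      rw [← htb.fix_EE_eq hs hnb] at hv'
      have c2 : (x * b * x⁻¹) * v = v * (x * b * x⁻¹) :=
        Subgroup.mem_centralizer_iff.mp hv'.2 _ heE
      have c3 : Commute ((x * b * x⁻¹) ^ k)⁻¹ v :=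
        ((show Commute (x * b * x⁻¹) v from c2).pow_left k).inv_left
      calc ((x * b * x⁻¹) ^ k)⁻¹ * a * v = ((x * b * x⁻¹) ^ k)⁻¹ * (v * a) := by
            rw [mul_assoc, c1]
        _ = v * (((x * b * x⁻¹) ^ k)⁻¹ * a) := by rw [← mul_assoc, c3.eq, mul_assoc]
  have hae : a = (x * b * x⁻¹) ^ k := by
    have h2 : a = (x * b * x⁻¹) ^ k * (((x * b * x⁻¹) ^ k)⁻¹ * a) := by group
    rw [h2, hg, mul_one]
  apply EE_le_of_conj_mem
  intro y hy
  rw [hae]
  exact conj_mem_EE_of_mem_K hy (Subgroup.pow_mem _ heE k)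

theorem IsTransv.EE_eq_of_spn_eq (hs : Setup p V H K) (hta : IsTransv p V H a)
    (htb : IsTransv p V H b) (hna : ∃ x ∈ K, x * a ≠ a * x) (hnb : ∃ x ∈ K, x * b ≠ b * x)
    (hSS : spn V K a = spn V K b) : EE K a = EE K b :=
  le_antisymm (hta.EE_le_of_spn_eq hs htb hna hnb hSS) (htb.EE_le_of_spn_eq hs hta hnb hna hSS.symm)

theorem IsTransv.QQ_inf_eq_bot (hs : Setup p V H K) (hta : IsTransv p V H a)
    (htb : IsTransv p V H b) (hna : ∃ x ∈ K, x * a ≠ a * x) (hnb : ∃ x ∈ K, x * b ≠ b * x)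
    (hdisj : spn V K a ⊓ spn V K b = ⊥) : QQ K a ⊓ QQ K b = ⊥ := by
  rw [eq_bot_iff]
  rintro g ⟨hga, hgb⟩
  rw [Subgroup.mem_bot]
  apply hs.eq_one_of_forall_commute (hs.KH (QQ_le_K hs hta.mem hga))
  intro v hv
  have h1 : ⁅v, g⁆ ∈ ⁅V, QQ K a⁆ := Subgroup.commutator_mem_commutator hv hga
  have h2 : ⁅v, g⁆ ∈ ⁅V, QQ K b⁆ := Subgroup.commutator_mem_commutator hv hgb
  rw [hta.commutator_QQ hs hna] at h1
  rw [htb.commutator_QQ hs hnb] at h2
  have h3 : ⁅v, g⁆ ∈ spn V K a ⊓ spn V K b := ⟨h1, h2⟩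
  rw [hdisj, Subgroup.mem_bot, comm_eq_one_iff] at h3
  exact h3.symm

theorem IsTransv.QQ_commute (hs : Setup p V H K) (hta : IsTransv p V H a)
    (htb : IsTransv p V H b) (hna : ∃ x ∈ K, x * a ≠ a * x) (hnb : ∃ x ∈ K, x * b ≠ b * x)
    (hdisj : spn V K a ⊓ spn V K b = ⊥) : ∀ g ∈ QQ K a, ∀ h ∈ QQ K b, g * h = h * g := by
  intro g hg h hh
  have h1 : ⁅g, h⁆ ∈ QQ K a := by
    have e : ⁅g, h⁆ = g * (h * g⁻¹ * h⁻¹) := by simp only [commutatorElement_def]; group
    rw [e]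
    exact Subgroup.mul_mem _ hg
      (conj_mem_QQ_of_mem_K (QQ_le_K hs htb.mem hh) (Subgroup.inv_mem _ hg))
  have h2 : ⁅g, h⁆ ∈ QQ K b := by
    rw [commutatorElement_def]
    exact Subgroup.mul_mem _ (conj_mem_QQ_of_mem_K (QQ_le_K hs hta.mem hg) hh)
      (Subgroup.inv_mem _ hh)
  have h3 : ⁅g, h⁆ ∈ QQ K a ⊓ QQ K b := ⟨h1, h2⟩
  rw [hta.QQ_inf_eq_bot hs htb hna hnb hdisj, Subgroup.mem_bot,
    commutatorElement_eq_one_iff_mul_comm] at h3
  exact h3

theorem IsTransv.QQ_commute_spn (hs : Setup p V H K) (hta : IsTransv p V H a)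
    (htb : IsTransv p V H b) (hnb : ∃ x ∈ K, x * b ≠ b * x)
    (hdisj : spn V K a ⊓ spn V K b = ⊥) : ∀ h ∈ QQ K b, ∀ s ∈ spn V K a, h * s = s * h := by
  intro h hh s hs'
  have hhK : h ∈ K := QQ_le_K hs htb.mem hh
  have h1 : ⁅h, s⁆ ∈ spn V K a := by
    rw [commutatorElement_def]
    exact Subgroup.mul_mem _ (hta.conj_mem_spn_of_mem_K hs hhK hs') (Subgroup.inv_mem _ hs')
  have h2 : ⁅h, s⁆ ∈ spn V K b := by
    have h3 : ⁅s, h⁆ ∈ ⁅V, QQ K b⁆ :=
      Subgroup.commutator_mem_commutator (spn_le hs hta.mem hs') hh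
    rw [htb.commutator_QQ hs hnb] at h3
    have h4 : ⁅h, s⁆ = ⁅s, h⁆⁻¹ := (commutatorElement_inv s h).symm
    rw [h4]; exact Subgroup.inv_mem _ h3
  have h3 : ⁅h, s⁆ ∈ spn V K a ⊓ spn V K b := ⟨h1, h2⟩
  rw [hdisj, Subgroup.mem_bot, comm_eq_one_iff] at h3
  exact h3

theorem IsTransv.commute_QQ (hs : Setup p V H K) (hta : IsTransv p V H a)
    (htb : IsTransv p V H b) (hnb : ∃ x ∈ K, x * b ≠ b * x)
    (hdisj : spn V K a ⊓ spn V K b = ⊥) : ∀ h ∈ QQ K b, h * a = a * h := by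
  intro h hh
  have hhK : h ∈ K := QQ_le_K hs htb.mem hh
  have hn : h ∈ Subgroup.normalizer ((ctr V a : Subgroup G) : Set G) :=
    mem_normalizer_of_forall_commute
      (fun w hw => hta.QQ_commute_spn hs htb hnb hdisj h hh w (ctr_self_le_spn hw))
  have h1 := conj_mem_chainStab (hs.norm (hs.KH hhK)) hn hta.mem_chainStab
  have h2 : ⁅h, a⁆ ∈ chainStab V (ctr V a) := by
    rw [commutatorElement_def]
    exact Subgroup.mul_mem _ h1 (Subgroup.inv_mem _ hta.mem_chainStab)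
  have h3 := hs.eq_one_of_mem_chainStab (ctr_le (hs.norm hta.mem)) (hs.comm_mem_K hhK hta.mem) h2
  rw [commutatorElement_eq_one_iff_mul_comm] at h3
  exact h3

theorem IsTransv.spn_le_fix (hs : Setup p V H K) (hta : IsTransv p V H a)
    (htb : IsTransv p V H b) (hna : ∃ x ∈ K, x * a ≠ a * x)
    (hdisj : spn V K a ⊓ spn V K b = ⊥) :
    spn V K b ≤ V ⊓ Subgroup.centralizer (EE K a : Set G) := by
  intro s hs'
  rw [hta.fix_EE_eq hs hna]
  refine ⟨spn_le hs htb.mem hs', ?_⟩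
  show s ∈ Subgroup.centralizer (QQ K a : Set G)
  rw [Subgroup.mem_centralizer_iff]
  intro q hq
  exact htb.QQ_commute_spn hs hta hna (by rw [inf_comm]; exact hdisj) q hq s hs'

theorem IsTransv.commute_of_spn_inf (hs : Setup p V H K) (hta : IsTransv p V H a)
    (htb : IsTransv p V H b) (hna : ∃ x ∈ K, x * a ≠ a * x) (hnb : ∃ x ∈ K, x * b ≠ b * x)
    (hdisj : spn V K a ⊓ spn V K b = ⊥) : a * b = b * a := by
  have hdisj' : spn V K b ⊓ spn V K a = ⊥ := by rw [inf_comm]; exact hdisj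
  have hg : ⁅a, b⁆ = 1 := by
    apply hta.eq_one_of_commute_spn_fix hs hna
    · rw [commutatorElement_def]
      exact H.mul_mem (H.mul_mem (H.mul_mem hta.mem htb.mem) (H.inv_mem hta.mem)) (H.inv_mem htb.mem)
    · intro s hs'
      -- b commutes with S_a
      have hb : ∀ t ∈ spn V K a, b * t = t * b := by
        intro t ht
        have := (htb.spn_le_fix hs hta hnb hdisj' ht).2
        exact (Subgroup.mem_centralizer_iff.mp this b self_mem_EE)
      have hs'' : a⁻¹ * s * a ∈ spn V K a := by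
        have := hta.conj_mem_spn_of_commute hs (H.inv_mem hta.mem) (by group) hs'
        simpa using this
      have c1 : b * s = s * b := hb s hs'
      have c2 : b * (a⁻¹ * s * a) = (a⁻¹ * s * a) * b := hb _ hs''
      have c3 : (a * b * a⁻¹) * s = s * (a * b * a⁻¹) := by
        calc (a * b * a⁻¹) * s = a * (b * (a⁻¹ * s * a)) * a⁻¹ := by group
          _ = a * ((a⁻¹ * s * a) * b) * a⁻¹ := by rw [c2]
          _ = s * (a * b * a⁻¹) := by group
      have c4 : b⁻¹ * s = s * b⁻¹ := ((show Commute b s from c1).inv_left).eq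
      rw [commutatorElement_def]
      calc a * b * a⁻¹ * b⁻¹ * s = a * b * a⁻¹ * (b⁻¹ * s) := by group
        _ = (a * b * a⁻¹ * s) * b⁻¹ := by rw [c4]; group
        _ = s * (a * b * a⁻¹ * b⁻¹) := by rw [c3]; group
    · intro v hv
      have c1 : a * v = v * a := hta.commute_of_mem_fix hs hna hv
      -- b normalizes C_V(Q_a)
      have hbQ : b ∈ Subgroup.normalizer ((QQ K a : Subgroup G) : Set G) :=
        mem_normalizer_of_forall_commute
          (fun q hq => (htb.commute_QQ hs hta hna hdisj' q hq).symm)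
      have hv' : b⁻¹ * v * b ∈ V ⊓ Subgroup.centralizer (QQ K a : Set G) := by
        refine ⟨conj_inv_mem_of_mem_normalizer (hs.norm htb.mem) hv.1, ?_⟩
        have := conj_mem_centralizer_of_mem_normalizer (Subgroup.inv_mem _ hbQ) hv.2
        simpa using this
      have c2 : a * (b⁻¹ * v * b) = (b⁻¹ * v * b) * a := hta.commute_of_mem_fix hs hna hv'
      have c2' : a⁻¹ * (b⁻¹ * v * b) = (b⁻¹ * v * b) * a⁻¹ :=
        ((show Commute a (b⁻¹ * v * b) from c2).inv_left).eq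
      have c3 : (b * a⁻¹ * b⁻¹) * v = v * (b * a⁻¹ * b⁻¹) := by
        calc (b * a⁻¹ * b⁻¹) * v = b * (a⁻¹ * (b⁻¹ * v * b)) * b⁻¹ := by group
          _ = b * ((b⁻¹ * v * b) * a⁻¹) * b⁻¹ := by rw [c2']
          _ = v * (b * a⁻¹ * b⁻¹) := by group
      rw [commutatorElement_def]
      calc a * b * a⁻¹ * b⁻¹ * v = a * ((b * a⁻¹ * b⁻¹) * v) := by group
        _ = (a * v) * (b * a⁻¹ * b⁻¹) := by rw [c3]; group
        _ = v * (a * b * a⁻¹ * b⁻¹) := by rw [c1]; group
  rw [commutatorElement_eq_one_iff_mul_comm] at hg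
  exact hg

theorem IsTransv.EE_commute (hs : Setup p V H K) (hta : IsTransv p V H a)
    (htb : IsTransv p V H b) (hna : ∃ x ∈ K, x * a ≠ a * x) (hnb : ∃ x ∈ K, x * b ≠ b * x)
    (hdisj : spn V K a ⊓ spn V K b = ⊥) :
    EE K a ≤ Subgroup.centralizer (EE K b : Set G) := by
  have hdisj' : spn V K b ⊓ spn V K a = ⊥ := by rw [inf_comm]; exact hdisj
  apply sup_le
  · intro g hg
    show g ∈ Subgroup.centralizer ((QQ K b ⊔ Subgroup.zpowers b : Subgroup G) : Set G)
    rw [mem_centralizer_sup]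
    refine ⟨?_, ?_⟩
    · rw [Subgroup.mem_centralizer_iff]
      intro h hh
      exact (hta.QQ_commute hs htb hna hnb hdisj g hg h hh).symm
    · rw [centralizer_zpowers, mem_centralizer_singleton_iff]
      exact (htb.commute_QQ hs hta hna hdisj' g hg).symm
  · rw [Subgroup.zpowers_le]
    show a ∈ Subgroup.centralizer ((QQ K b ⊔ Subgroup.zpowers b : Subgroup G) : Set G)
    rw [mem_centralizer_sup]
    refine ⟨?_, ?_⟩
    · rw [Subgroup.mem_centralizer_iff]
      intro h hh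
      exact hta.commute_QQ hs htb hnb hdisj h hh
    · rw [centralizer_zpowers, mem_centralizer_singleton_iff]
      exact (hta.commute_of_spn_inf hs htb hna hnb hdisj).symm

/-- **Dichotomy.** -/
theorem IsTransv.dichotomy (hs : Setup p V H K) (hta : IsTransv p V H a)
    (htb : IsTransv p V H b) (hna : ∃ x ∈ K, x * a ≠ a * x) (hnb : ∃ x ∈ K, x * b ≠ b * x) :
    EE K a = EE K b ∨
      (EE K a ≤ Subgroup.centralizer (EE K b : Set G) ∧
        spn V K a ≤ Subgroup.centralizer (EE K b : Set G) ∧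
        spn V K b ≤ Subgroup.centralizer (EE K a : Set G)) := by
  have h1 := hta.spn_inf_or_le hs htb hna
  have h2 := htb.spn_inf_or_le hs hta hnb
  have hcase : spn V K a ⊓ spn V K b = ⊥ ∨ spn V K a = spn V K b := by
    rcases h1 with h1 | h1
    · exact Or.inl h1
    · rcases h2 with h2 | h2
      · left; rw [inf_comm]; exact h2
      · exact Or.inr (le_antisymm h1 h2)
  rcases hcase with hd | he
  · right
    have hd' : spn V K b ⊓ spn V K a = ⊥ := by rw [inf_comm]; exact hd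
    exact ⟨hta.EE_commute hs htb hna hnb hd, (htb.spn_le_fix hs hta hnb hd').trans inf_le_right,
      (hta.spn_le_fix hs htb hna hd).trans inf_le_right⟩
  · exact Or.inl (hta.EE_eq_of_spn_eq hs htb hna hnb he)

end dich

end Cfsg.Agent.Lib.Helper11.FF
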