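import Mathlib
import Cfsg.Agent.Lib.Helper11.FFDich
import Cfsg.Agent.Lib.Helper48.Generation
import Cfsg.Agent.S0028

/-!
Best offenders in a faithful group `H` on `V` with a normal `p'`-subgroup `K` containing its
centralizer: every nontrivial best offender has a best-offender hyperplane of the same weight,
so `|A| |C_V(A)| = |V|`; minimal ones are generated by transvections.
-/

set_option autoImplicit false

namespace Cfsg.Agent.Lib.Helper11.FF

open scoped commutatorElement
open Cfsg.Agent.Lib.Helper47 Cfsg.Agent.Lib.Helper34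

variable {G : Type*} [Group G]

section off

variable [Finite G] {p : ℕ} [Fact p.Prime] {V H K : Subgroup G}

theorem mem_normalizer_inf {A B : Subgroup G} {x : G}
    (hA : x ∈ Subgroup.normalizer (A : Set G)) (hB : x ∈ Subgroup.normalizer (B : Set G)) :
    x ∈ Subgroup.normalizer ((A ⊓ B : Subgroup G) : Set G) := by
  rw [Subgroup.mem_normalizer_iff] at hA hB ⊢
  intro k
  rw [Subgroup.mem_inf, Subgroup.mem_inf, hA k, hB k]

theorem mem_normalizer_centralizer {Q : Subgroup G} {g : G}
    (hg : g ∈ Subgroup.normalizer (Q : Set G)) :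
    g ∈ Subgroup.normalizer ((Subgroup.centralizer (Q : Set G) : Subgroup G) : Set G) := by
  rw [Subgroup.mem_normalizer_iff]
  intro v
  refine ⟨fun hv => conj_mem_centralizer_of_mem_normalizer hg hv, fun hv => ?_⟩
  have h1 := conj_mem_centralizer_of_mem_normalizer (Subgroup.inv_mem _ hg) hv
  have h2 : g⁻¹ * (g * v * g⁻¹) * g⁻¹⁻¹ = v := by group
  rwa [h2] at h1

theorem exists_compl_zpowers {A : Subgroup G} (hAc : ∀ x ∈ A, ∀ y ∈ A, x * y = y * x)
    (hAe : ∀ x ∈ A, x ^ p = 1) {u : G} (hu : u ∈ A) :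
    ∃ A' ≤ A, A' ⊓ Subgroup.zpowers u = ⊥ ∧ A' ⊔ Subgroup.zpowers u = A := by
  obtain ⟨W, -, hmax⟩ := Finite.exists_le_maximal
    (p := fun W : Subgroup G => W ≤ A ∧ W ⊓ Subgroup.zpowers u = ⊥) (a := ⊥)
    ⟨bot_le, bot_inf_eq _⟩
  refine ⟨W, hmax.1.1, hmax.1.2, ?_⟩
  apply le_antisymm (sup_le hmax.1.1 (Subgroup.zpowers_le.mpr hu))
  intro x hx
  by_contra hxn
  have hx1 : x ≠ 1 := fun h => hxn (h ▸ Subgroup.one_mem _)
  have hxo : orderOf x = p := orderOf_eq_prime (hAe x hx) hx1
  have hxc : Nat.card (Subgroup.zpowers x) = p := by rw [Nat.card_zpowers, hxo]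
  have hnew : (W ⊔ Subgroup.zpowers x) ≤ A ∧ (W ⊔ Subgroup.zpowers x) ⊓ Subgroup.zpowers u = ⊥ := by
    refine ⟨sup_le hmax.1.1 (Subgroup.zpowers_le.mpr hx), ?_⟩
    rw [eq_bot_iff]
    rintro g ⟨hg1, hg2⟩
    rw [Subgroup.mem_bot]
    have hcomm : ∀ a ∈ W, ∀ b ∈ Subgroup.zpowers x, a * b = b * a := fun a ha b hb =>
      hAc a (hmax.1.1 ha) b (Subgroup.zpowers_le.mpr hx hb)
    obtain ⟨w, hw, z, hz, rfl⟩ := (Cfsg.Agent.Lib.Helper25.mem_sup_of_commute hcomm).mp hg1
    by_cases hz1 : z = 1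
    · rw [hz1, mul_one] at hg2 ⊢
      have : w ∈ W ⊓ Subgroup.zpowers u := ⟨hw, hg2⟩
      rw [hmax.1.2] at this
      exact Subgroup.mem_bot.mp this
    · exfalso
      apply hxn
      have hzz := zpowers_eq_of_card_prime hxc hz hz1
      have h1 : z ∈ W ⊔ Subgroup.zpowers u := by
        have : z = w⁻¹ * (w * z) := by group
        rw [this]
        exact Subgroup.mul_mem _ (Subgroup.mem_sup_left (W.inv_mem hw)) (Subgroup.mem_sup_right hg2)
      have h2 : x ∈ Subgroup.zpowers z := by rw [hzz]; exact Subgroup.mem_zpowers x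
      exact (Subgroup.zpowers_le.mpr h1) h2
  have h3 := hmax.2 hnew le_sup_left
  exact hxn (Subgroup.mem_sup_left (h3 (Subgroup.mem_sup_right (Subgroup.mem_zpowers x))))

/-- an elementary abelian `p`-group acting nontrivially on a `p'`-group has a hyperplane whose
fixed points it does not centralize. -/
theorem exists_hyperplane (n : ℕ) : ∀ (A K : Subgroup G), Nat.card A = n →
    (∀ x ∈ A, ∀ y ∈ A, x * y = y * x) → (∀ x ∈ A, x ^ p = 1) → (Nat.card K).Coprime p →
    A ≤ Subgroup.normalizer (K : Set G) → ¬ A ≤ Subgroup.centralizer (K : Set G) →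
    ∃ B ≤ A, Nat.card B * p = Nat.card A ∧
      ¬ A ≤ Subgroup.centralizer ((K ⊓ Subgroup.centralizer (B : Set G) : Subgroup G) : Set G) := by
  have hpp : p.Prime := Fact.out
  induction n using Nat.strong_induction_on with
  | _ n ih =>
  intro A K hn hAc hAe hcop hAK hnc
  by_cases hcyc : IsCyclic A
  · obtain ⟨g, hg⟩ := hcyc.exists_generator
    have hg1 : (g : G) ≠ 1 := by
      intro h
      apply hnc
      intro x hx
      have := hg ⟨x, hx⟩
      obtain ⟨k, hk⟩ := Subgroup.mem_zpowers_iff.mp this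
      have h2 : x = (g : G) ^ k := by
        have := congrArg Subtype.val hk
        simpa using this.symm
      rw [h2, h]; simp
    have hgo : orderOf g = p := by
      rw [← Subgroup.orderOf_coe]
      exact orderOf_eq_prime (hAe g g.2) hg1
    have hcard : Nat.card A = p := by
      rw [← hgo]
      exact (orderOf_eq_card_of_forall_mem_zpowers hg).symm
    refine ⟨⊥, bot_le, by rw [Subgroup.card_bot, one_mul, hcard], ?_⟩
    rw [centralizer_bot, inf_top_eq]
    exact hnc
  · have hp : ¬ p ∣ Nat.card K := (Nat.Prime.coprime_iff_not_dvd hpp).mp hcop.symm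
    have hex : ∃ u ∈ A, u ≠ 1 ∧
        ¬ A ≤ Subgroup.centralizer ((K ⊓ Subgroup.centralizer ({u} : Set G) : Subgroup G) : Set G) := by
      by_contra hcon
      push Not at hcon
      apply hnc
      have h1 := Cfsg.Agent.Lib.Helper48.coprime_generation_le K A hAc hAe hcyc hp hAK
        (K ⊓ Subgroup.centralizer (A : Set G))
        (fun u hu hu1 => le_inf inf_le_left (Subgroup.le_centralizer_iff.mp (hcon u hu hu1)))
      exact Subgroup.le_centralizer_iff.mp (h1.trans inf_le_right)
    obtain ⟨u, hu, hu1, hnu⟩ := hex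
    obtain ⟨A', hA'A, hinf, hsup⟩ := exists_compl_zpowers hAc hAe hu
    have horder : orderOf u = p := orderOf_eq_prime (hAe u hu) hu1
    have hcomm : ∀ a ∈ A', ∀ b ∈ Subgroup.zpowers u, a * b = b * a := fun a ha b hb =>
      hAc a (hA'A ha) b (Subgroup.zpowers_le.mpr hu hb)
    have hcardA : Nat.card A = Nat.card A' * p := by
      have := card_sup_of_comm_of_inf_eq_bot hcomm hinf
      rw [hsup, Nat.card_zpowers, horder] at this
      exact this
    have hpos : 0 < Nat.card A' := Nat.card_pos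
    have hlt : Nat.card A' < n := by
      rw [← hn, hcardA]
      have := hpp.one_lt
      nlinarith
    have hA'K₁ : A' ≤ Subgroup.normalizer
        ((K ⊓ Subgroup.centralizer ({u} : Set G) : Subgroup G) : Set G) := by
      intro x hx
      apply mem_normalizer_inf (hAK (hA'A hx))
      rw [← centralizer_zpowers]
      apply mem_normalizer_centralizer
      apply mem_normalizer_of_forall_commute
      intro b hb
      exact hAc x (hA'A hx) b (Subgroup.zpowers_le.mpr hu hb)
    have huc : u ∈ Subgroup.centralizer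
        ((K ⊓ Subgroup.centralizer ({u} : Set G) : Subgroup G) : Set G) := by
      rw [Subgroup.mem_centralizer_iff]
      intro k hk
      exact (mem_centralizer_singleton_iff.mp hk.2).symm
    have hnA' : ¬ A' ≤ Subgroup.centralizer
        ((K ⊓ Subgroup.centralizer ({u} : Set G) : Subgroup G) : Set G) := by
      intro h
      apply hnu
      rw [← hsup]
      exact sup_le h (Subgroup.zpowers_le.mpr huc)
    obtain ⟨B', hB'A', hcardB', hnB'⟩ := ih (Nat.card A') hlt A'
      (K ⊓ Subgroup.centralizer ({u} : Set G)) rfl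
      (fun x hx y hy => hAc x (hA'A hx) y (hA'A hy)) (fun x hx => hAe x (hA'A hx))
      (Nat.Coprime.coprime_dvd_left (Subgroup.card_dvd_of_le inf_le_left) hcop) hA'K₁ hnA'
    refine ⟨B' ⊔ Subgroup.zpowers u, sup_le (hB'A'.trans hA'A) (Subgroup.zpowers_le.mpr hu), ?_, ?_⟩
    · have hinf' : B' ⊓ Subgroup.zpowers u = ⊥ := by
        rw [eq_bot_iff, ← hinf]
        exact inf_le_inf_right _ hB'A'
      have hcomm' : ∀ a ∈ B', ∀ b ∈ Subgroup.zpowers u, a * b = b * a := fun a ha b hb =>
        hcomm a (hB'A' ha) b hb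
      rw [card_sup_of_comm_of_inf_eq_bot hcomm' hinf', Nat.card_zpowers, horder, hcardB', hcardA]
    · intro h
      apply hnB'
      have e : K ⊓ Subgroup.centralizer ((B' ⊔ Subgroup.zpowers u : Subgroup G) : Set G) =
          K ⊓ Subgroup.centralizer ({u} : Set G) ⊓ Subgroup.centralizer (B' : Set G) := by
        rw [centralizer_sup, centralizer_zpowers, inf_assoc,
          inf_comm (Subgroup.centralizer ({u} : Set G))]
      rw [e] at h
      exact hA'A.trans h

theorem offender_props (hs : Setup p V H K) {A : Subgroup G} (hAH : A ≤ H)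
    (hA : Cfsg.IsBestOffenderOn p V A) :
    (∀ x ∈ A, ∀ y ∈ A, x * y = y * x) ∧ (∀ x ∈ A, x ^ p = 1) := by
  refine ⟨fun x hx y hy => ?_, fun x hx => ?_⟩
  · have h1 : ⁅x, y⁆ ∈ Subgroup.centralizer (V : Set G) :=
      hA.2.1 (Subgroup.commutator_mem_commutator hx hy)
    have h2 : ⁅x, y⁆ ∈ H := by
      rw [commutatorElement_def]
      exact H.mul_mem (H.mul_mem (H.mul_mem (hAH hx) (hAH hy)) (H.inv_mem (hAH hx)))
        (H.inv_mem (hAH hy))
    have h3 := hs.eq_one_of_centralizes h2 h1
    rwa [commutatorElement_eq_one_iff_mul_comm] at h3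
  · exact hs.eq_one_of_centralizes (H.pow_mem (hAH hx) p) (hA.2.2 x hx)

theorem exists_not_commute (hs : Setup p V H K)
    (hCK : H ⊓ Subgroup.centralizer (K : Set G) ≤ K) {b : G} (hbH : b ∈ H) (hbp : b ^ p = 1)
    (hb1 : b ≠ 1) : ∃ x ∈ K, x * b ≠ b * x := by
  by_contra hcon
  push Not at hcon
  apply hb1
  apply hs.eq_one_of_pow _ hbp
  apply hCK
  refine ⟨hbH, ?_⟩
  show b ∈ Subgroup.centralizer (K : Set G)
  rw [Subgroup.mem_centralizer_iff]
  exact hcon

theorem exists_offender_hyperplane (hs : Setup p V H K)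
    (hCK : H ⊓ Subgroup.centralizer (K : Set G) ≤ K) {A : Subgroup G} (hAH : A ≤ H)
    (hA : Cfsg.IsBestOffenderOn p V A) (hA1 : A ≠ ⊥) :
    ∃ B ≤ A, Nat.card B * p = Nat.card A ∧
      Nat.card ↥(V ⊓ Subgroup.centralizer (B : Set G)) =
        p * Nat.card ↥(V ⊓ Subgroup.centralizer (A : Set G)) ∧
      Cfsg.IsBestOffenderOn p V B := by
  have hpp : p.Prime := Fact.out
  obtain ⟨hAc, hAe⟩ := offender_props hs hAH hA
  have hAK : A ≤ Subgroup.normalizer (K : Set G) := hAH.trans hs.Knorm
  have hnc : ¬ A ≤ Subgroup.centralizer (K : Set G) := by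
    intro h
    apply hA1
    rw [eq_bot_iff]
    intro x hx
    have : x ∈ K := hCK ⟨hAH hx, h hx⟩
    exact Subgroup.mem_bot.mpr (hs.eq_one_of_pow this (hAe x hx))
  obtain ⟨B, hBA, hcard, hnB⟩ := exists_hyperplane _ A K rfl hAc hAe hs.Kcop hAK hnc
  have hle : V ⊓ Subgroup.centralizer (A : Set G) ≤ V ⊓ Subgroup.centralizer (B : Set G) :=
    inf_le_inf_left _ (Subgroup.centralizer_le (by exact_mod_cast hBA))
  have hne : V ⊓ Subgroup.centralizer (A : Set G) ≠ V ⊓ Subgroup.centralizer (B : Set G) := by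
    intro heq
    apply hnB
    have hK₁K : K ⊓ Subgroup.centralizer (B : Set G) ≤ K := inf_le_left
    have hAK₁ : A ≤ Subgroup.normalizer
        ((K ⊓ Subgroup.centralizer (B : Set G) : Subgroup G) : Set G) := by
      intro x hx
      apply mem_normalizer_inf (hAK hx)
      apply mem_normalizer_centralizer
      apply mem_normalizer_of_forall_commute
      intro b hb
      exact hAc x hx b (hBA hb)
    have hRK₁ : ⁅K ⊓ Subgroup.centralizer (B : Set G), A⁆ ≤ K ⊓ Subgroup.centralizer (B : Set G) :=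
      commutator_le_of_le_normalizer hAK₁ le_rfl
    have hRW : ⁅K ⊓ Subgroup.centralizer (B : Set G), A⁆ ≤
        Subgroup.centralizer ((V ⊓ Subgroup.centralizer (B : Set G) : Subgroup G) : Set G) := by
      rw [Subgroup.commutator_le]
      intro k hk a' ha'
      rw [Subgroup.mem_centralizer_iff]
      intro w hw
      have hkW : k ∈ Subgroup.normalizer
          ((V ⊓ Subgroup.centralizer (B : Set G) : Subgroup G) : Set G) :=
        mem_normalizer_inf (hs.norm (hs.KH hk.1))
          (mem_normalizer_centralizer (Subgroup.centralizer_le_normalizer _ hk.2))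
      have hw' : k⁻¹ * w * k ∈ V ⊓ Subgroup.centralizer (B : Set G) :=
        conj_inv_mem_of_mem_normalizer hkW hw
      have c1 : a' * w = w * a' := by
        rw [← heq] at hw
        exact Subgroup.mem_centralizer_iff.mp hw.2 a' ha'
      have c2 : a' * (k⁻¹ * w * k) = (k⁻¹ * w * k) * a' := by
        rw [← heq] at hw'
        exact Subgroup.mem_centralizer_iff.mp hw'.2 a' ha'
      have c3 : (k * a' * k⁻¹) * w = w * (k * a' * k⁻¹) := by
        calc (k * a' * k⁻¹) * w = k * (a' * (k⁻¹ * w * k)) * k⁻¹ := by group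
          _ = k * ((k⁻¹ * w * k) * a') * k⁻¹ := by rw [c2]
          _ = w * (k * a' * k⁻¹) := by group
      have c4 : a'⁻¹ * w = w * a'⁻¹ := ((show Commute a' w from c1).inv_left).eq
      rw [commutatorElement_def]
      calc w * (k * a' * k⁻¹ * a'⁻¹) = (w * (k * a' * k⁻¹)) * a'⁻¹ := by group
        _ = (k * a' * k⁻¹) * (w * a'⁻¹) := by rw [← c3]; group
        _ = k * a' * k⁻¹ * a'⁻¹ * w := by rw [← c4]; group
    have hRV := Cfsg.Agent.S0028.result p B ⁅K ⊓ Subgroup.centralizer (B : Set G), A⁆ V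
      (by
        intro b
        refine ⟨1, Subtype.ext ?_⟩
        rw [pow_one, Subgroup.coe_pow]
        exact hAe b (hBA b.2))
      (Nat.Coprime.coprime_dvd_left (Subgroup.card_dvd_of_le (hRK₁.trans hK₁K)) hs.Kcop)
      (hs.isPGroup_of_le le_rfl)
      (Subgroup.le_centralizer_iff.mp (hRK₁.trans inf_le_right))
      ((hBA.trans hAH).trans hs.norm)
      (((hRK₁.trans hK₁K).trans hs.KH).trans hs.norm)
      (Subgroup.le_centralizer_iff.mp hRW)
    have hR1 : ⁅K ⊓ Subgroup.centralizer (B : Set G), A⁆ = ⊥ := by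
      rw [eq_bot_iff, ← hs.faith]
      exact le_inf ((hRK₁.trans hK₁K).trans hs.KH) hRV
    rw [Subgroup.commutator_eq_bot_iff_le_centralizer] at hR1
    exact Subgroup.le_centralizer_iff.mp hR1
  have hcB : Nat.card ↥(V ⊓ Subgroup.centralizer (B : Set G)) =
      p * Nat.card ↥(V ⊓ Subgroup.centralizer (A : Set G)) := by
    obtain ⟨l, hl⟩ := (IsPGroup.iff_card).mp
      (hs.isPGroup_of_le (inf_le_left : V ⊓ Subgroup.centralizer (A : Set G) ≤ V))
    obtain ⟨m, hm⟩ := (IsPGroup.iff_card).mp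
      (hs.isPGroup_of_le (inf_le_left : V ⊓ Subgroup.centralizer (B : Set G) ≤ V))
    have hdvd := Subgroup.card_dvd_of_le hle
    rw [hl, hm] at hdvd
    have hlm : l ≤ m := (Nat.pow_dvd_pow_iff_le_right hpp.one_lt).mp hdvd
    have hlm' : l ≠ m := by
      intro h
      apply hne
      apply Subgroup.eq_of_le_of_card_ge hle
      rw [hl, hm, h]
    have h1 : p * Nat.card ↥(V ⊓ Subgroup.centralizer (A : Set G)) ≤
        Nat.card ↥(V ⊓ Subgroup.centralizer (B : Set G)) := by
      rw [hl, hm, ← pow_succ']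
      exact Nat.pow_le_pow_right hpp.pos (by omega)
    have h2 := hA.1 B hBA
    rw [← hcard] at h2
    have hposB : 0 < Nat.card B := Nat.card_pos
    have h3 : Nat.card ↥(V ⊓ Subgroup.centralizer (B : Set G)) ≤
        p * Nat.card ↥(V ⊓ Subgroup.centralizer (A : Set G)) := by
      have : Nat.card B * Nat.card ↥(V ⊓ Subgroup.centralizer (B : Set G)) ≤
          Nat.card B * (p * Nat.card ↥(V ⊓ Subgroup.centralizer (A : Set G))) := by
        rw [← mul_assoc]; exact h2
      exact Nat.le_of_mul_le_mul_left this hposB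
    exact le_antisymm h3 h1
  refine ⟨B, hBA, hcard, hcB, ?_, (Subgroup.commutator_mono hBA hBA).trans hA.2.1,
    fun b hb => hA.2.2 b (hBA hb)⟩
  intro C hC
  have h1 := hA.1 C (hC.trans hBA)
  rw [hcB, ← mul_assoc, hcard]
  exact h1

/-- every best offender `A ≤ H` satisfies `|A| |C_V(A)| = |V|`. -/
theorem offender_card (hs : Setup p V H K) (hCK : H ⊓ Subgroup.centralizer (K : Set G) ≤ K)
    (n : ℕ) : ∀ A : Subgroup G, Nat.card A = n → A ≤ H → Cfsg.IsBestOffenderOn p V A →
      Nat.card A * Nat.card ↥(V ⊓ Subgroup.centralizer (A : Set G)) = Nat.card V := by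
  have hpp : p.Prime := Fact.out
  induction n using Nat.strong_induction_on with
  | _ n ih =>
  intro A hn hAH hA
  by_cases hA1 : A = ⊥
  · rw [hA1, Subgroup.card_bot, one_mul, centralizer_bot, inf_top_eq]
  · obtain ⟨B, hBA, hcard, hcB, hB⟩ := exists_offender_hyperplane hs hCK hAH hA hA1
    have hposB : 0 < Nat.card B := Nat.card_pos
    have hlt : Nat.card B < n := by
      rw [← hn, ← hcard]
      have := hpp.one_lt
      nlinarith
    have h1 := ih (Nat.card B) hlt B rfl (hBA.trans hAH) hB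
    rw [← h1, hcB, ← hcard, mul_assoc]

theorem commutator_ne_bot (hs : Setup p V H K) {B : Subgroup G} (hBH : B ≤ H) (hB : B ≠ ⊥) :
    ⁅V, B⁆ ≠ ⊥ := by
  intro h
  apply hB
  rw [Subgroup.commutator_eq_bot_iff_le_centralizer] at h
  rw [eq_bot_iff, ← hs.faith]
  exact le_inf hBH (Subgroup.le_centralizer_iff.mp h)

/-- minimal nontrivially-acting best offender. -/
def IsMinOff (p : ℕ) (V A : Subgroup G) : Prop :=
  Cfsg.IsBestOffenderOn p V A ∧ ⁅V, A⁆ ≠ ⊥ ∧
    ∀ B : Subgroup G, B ≤ A → Cfsg.IsBestOffenderOn p V B → ⁅V, B⁆ ≠ ⊥ → B = A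

theorem IsMinOff.ne_bot {A : Subgroup G} (hA : IsMinOff p V A) : A ≠ ⊥ := by
  intro h
  apply hA.2.1
  rw [h, Subgroup.commutator_bot_right]

theorem IsMinOff.card (hs : Setup p V H K) (hCK : H ⊓ Subgroup.centralizer (K : Set G) ≤ K)
    {A : Subgroup G} (hAH : A ≤ H) (hA : IsMinOff p V A) : Nat.card A = p := by
  have hpp : p.Prime := Fact.out
  obtain ⟨B, hBA, hcard, -, hB⟩ := exists_offender_hyperplane hs hCK hAH hA.1 hA.ne_bot
  by_cases hB1 : B = ⊥
  · rw [hB1, Subgroup.card_bot, one_mul] at hcard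
    exact hcard.symm
  · exfalso
    have h1 := hA.2.2 B hBA hB (commutator_ne_bot hs (hBA.trans hAH) hB1)
    rw [h1] at hcard
    have hpos : 0 < Nat.card A := Nat.card_pos
    have := hpp.one_lt
    nlinarith

theorem IsMinOff.exists_transv (hs : Setup p V H K)
    (hCK : H ⊓ Subgroup.centralizer (K : Set G) ≤ K) {A : Subgroup G} (hAH : A ≤ H)
    (hA : IsMinOff p V A) : ∃ a, A = Subgroup.zpowers a ∧ IsTransv p V H a := by
  have hcard := hA.card hs hCK hAH
  obtain ⟨a, ha, ha1⟩ := exists_ne_one_of_card_prime hcard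
  have hz := zpowers_eq_of_card_prime hcard ha ha1
  refine ⟨a, hz.symm, hAH ha, (offender_props hs hAH hA.1).2 a ha, ?_⟩
  have h1 := offender_card hs hCK _ A rfl hAH hA.1
  have h2 := card_eq_fix_mul_ctr hs.comm (hs.norm (hAH ha)) (a := a)
  rw [← hz, centralizer_zpowers, Nat.card_zpowers] at h1
  have hord : orderOf a = p := by rw [← Nat.card_zpowers, hz, hcard]
  rw [hord, h2, mul_comm] at h1
  have hpos : 0 < Nat.card ↥(V ⊓ Subgroup.centralizer ({a} : Set G)) := Nat.card_pos
  exact (Nat.eq_of_mul_eq_mul_left hpos h1).symm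

theorem IsTransv.card_zpowers {a : G} (ht : IsTransv p V H a) :
    Nat.card (Subgroup.zpowers a) = p := by
  rw [Nat.card_zpowers]
  exact orderOf_eq_prime ht.pow ht.ne_one

theorem IsTransv.isMinOff (hs : Setup p V H K) {a : G} (ht : IsTransv p V H a) :
    IsMinOff p V (Subgroup.zpowers a) := by
  have hpp : p.Prime := Fact.out
  have hcz := ht.card_zpowers
  have hsub : ∀ B : Subgroup G, B ≤ Subgroup.zpowers a → B = ⊥ ∨ B = Subgroup.zpowers a := by
    intro B hB
    by_cases hB1 : B = ⊥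
    · exact Or.inl hB1
    · right
      obtain ⟨y, hy, hy1⟩ := (Subgroup.ne_bot_iff_exists_ne_one.mp hB1).elim
        (fun w hw => (⟨w.1, w.2, fun h => hw (Subtype.ext h)⟩ : ∃ y ∈ B, y ≠ 1))
      have hzz := zpowers_eq_of_card_prime hcz (hB hy) hy1
      exact le_antisymm hB (hzz ▸ Subgroup.zpowers_le.mpr hy)
  have hf : Nat.card (Subgroup.zpowers a) *
      Nat.card ↥(V ⊓ Subgroup.centralizer ((Subgroup.zpowers a : Subgroup G) : Set G)) =
      Nat.card V := by
    have h2 := card_eq_fix_mul_ctr hs.comm (hs.norm ht.mem) (a := a)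
    rw [centralizer_zpowers, hcz, h2, ht.card, mul_comm]
  refine ⟨⟨?_, ?_, ?_⟩, ?_, ?_⟩
  · intro B hB
    rcases hsub B hB with h | h
    · rw [h, hf, Subgroup.card_bot, one_mul]
      exact Subgroup.card_le_of_le inf_le_left
    · rw [h]
  · rw [Subgroup.commutator_eq_bot_iff_le_centralizer.mpr]
    · exact bot_le
    · intro x hx
      rw [Subgroup.mem_centralizer_iff]
      intro y hy
      obtain ⟨i, rfl⟩ := Subgroup.mem_zpowers_iff.mp hx
      obtain ⟨j, rfl⟩ := Subgroup.mem_zpowers_iff.mp hy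
      exact (Commute.zpow_zpow_self a j i).eq
  · intro x hx
    obtain ⟨i, rfl⟩ := Subgroup.mem_zpowers_iff.mp hx
    have : (a ^ i) ^ p = 1 := by
      rw [← zpow_natCast, ← zpow_mul, mul_comm, zpow_mul, zpow_natCast, ht.pow, one_zpow]
    rw [this]
    exact Subgroup.one_mem _
  · intro h
    have h1 := ht.card
    have h2 : ctr V a = ⊥ := h
    rw [h2, Subgroup.card_bot] at h1
    exact hpp.one_lt.ne h1
  · intro B hB _ hBne
    rcases hsub B hB with h | h
    · exfalso
      apply hBne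
      rw [h, Subgroup.commutator_bot_right]
    · exact h

end off

end Cfsg.Agent.Lib.Helper11.FF
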