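import Mathlib
import Cfsg.Agent.Lib.Helper11.FFOff

/-!
Every best offender is the direct product of the minimal best offenders (transvection groups)
it contains.
-/

set_option autoImplicit false

namespace Cfsg.Agent.Lib.Helper11.FF

open scoped commutatorElement
open Cfsg.Agent.Lib.Helper47 Cfsg.Agent.Lib.Helper34

variable {G : Type*} [Group G]

section decomp

variable [Finite G] {p : ℕ} [Fact p.Prime] {V H K : Subgroup G} {a : G}

theorem IsTransv.exists_mem_spn_not_mem_ctr (hs : Setup p V H K) (ht : IsTransv p V H a)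
    (hna : ∃ x ∈ K, x * a ≠ a * x) : ∃ u ∈ spn V K a, u ∉ ctr V a := by
  have hpp : p.Prime := Fact.out
  by_contra hcon
  push Not at hcon
  have h1 : spn V K a ≤ ctr V a := hcon
  have h2 := Subgroup.card_le_of_le h1
  rw [ht.card_spn hs hna, ht.card] at h2
  have := hpp.one_lt
  nlinarith

theorem IsTransv.spn_eq_sup (hs : Setup p V H K) (ht : IsTransv p V H a)
    (hna : ∃ x ∈ K, x * a ≠ a * x) {u : G} (hu : u ∈ spn V K a) (huc : u ∉ ctr V a) :
    spn V K a = ctr V a ⊔ Subgroup.zpowers u := by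
  have huV : u ∈ V := spn_le hs ht.mem hu
  have hu1 : u ≠ 1 := fun h => huc (h ▸ Subgroup.one_mem _)
  have horder : orderOf u = p := orderOf_eq_prime (hs.exp u huV) hu1
  symm
  apply Subgroup.eq_of_le_of_card_ge (sup_le ctr_self_le_spn (Subgroup.zpowers_le.mpr hu))
  have hinf : ctr V a ⊓ Subgroup.zpowers u = ⊥ := by
    rw [eq_bot_iff]
    rintro y ⟨hy1, hy2⟩
    rw [Subgroup.mem_bot]
    by_contra hy
    have hc : Nat.card (Subgroup.zpowers u) = p := by rw [Nat.card_zpowers, horder]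
    have hz := zpowers_eq_of_card_prime hc hy2 hy
    apply huc
    have : u ∈ Subgroup.zpowers y := by rw [hz]; exact Subgroup.mem_zpowers u
    exact (Subgroup.zpowers_le.mpr hy1) this
  have hcomm : ∀ w ∈ ctr V a, ∀ z ∈ Subgroup.zpowers u, w * z = z * w := fun w hw z hz =>
    hs.comm _ (ctr_le (hs.norm ht.mem) hw) _ (Subgroup.zpowers_le.mpr huV hz)
  rw [card_sup_of_comm_of_inf_eq_bot hcomm hinf, ht.card, Nat.card_zpowers, horder,
    ht.card_spn hs hna, sq]

/-- a best offender containing the transvection `b` splits as `⟨b⟩ × C_A([V, E_b])`, and the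
second factor is again a best offender. -/
theorem offender_split (hs : Setup p V H K) (hCK : H ⊓ Subgroup.centralizer (K : Set G) ≤ K)
    {A : Subgroup G} (hAH : A ≤ H) (hA : Cfsg.IsBestOffenderOn p V A) {b : G} (hb : b ∈ A)
    (htb : IsTransv p V H b) :
    Cfsg.IsBestOffenderOn p V (A ⊓ Subgroup.centralizer (spn V K b : Set G)) ∧
    (A ⊓ Subgroup.centralizer (spn V K b : Set G)) ⊓ Subgroup.zpowers b = ⊥ ∧
    (A ⊓ Subgroup.centralizer (spn V K b : Set G)) ⊔ Subgroup.zpowers b = A := by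
  have hpp : p.Prime := Fact.out
  obtain ⟨hAc, hAe⟩ := offender_props hs hAH hA
  have hnb := exists_not_commute hs hCK htb.mem htb.pow htb.ne_one
  have hSV := spn_le hs htb.mem (K := K)
  have hg_ctr : ∀ g ∈ A, ∀ w ∈ ctr V b, g * w = w * g := by
    intro g hg w hw
    apply commute_of_card_prime htb.card (hAe g hg) _ hw
    intro w' hw'
    have h1 := conj_mem_ctr_conj (hs.norm (hAH hg)) hw' (x := g)
    have h2 : g * b * g⁻¹ = b := by rw [hAc g hg b hb, mul_inv_cancel_right]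
    rwa [h2] at h1
  have hgS : ∀ g ∈ A, ∀ u ∈ spn V K b, g * u * g⁻¹ ∈ spn V K b := fun g hg u hu =>
    htb.conj_mem_spn_of_commute hs (hAH hg) (hAc g hg b hb) hu
  have hcomm_ctr : ∀ g ∈ A, ∀ u ∈ spn V K b, ⁅g, u⁆ ∈ ctr V b := by
    intro g hg u hu
    have huV := hSV hu
    apply htb.mem_ctr_of_mem_spn_of_commute hs
    · rw [commutatorElement_def]
      exact Subgroup.mul_mem _ (hgS g hg u hu) (Subgroup.inv_mem _ hu)
    · have e1 : b * ⁅g, u⁆ * b⁻¹ = ⁅b * g * b⁻¹, b * u * b⁻¹⁆ := by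
        simp only [commutatorElement_def]; group
      have e2 : b * g * b⁻¹ = g := by rw [← hAc g hg b hb, mul_inv_cancel_right]
      have e3 : ⁅g, ⁅b, u⁆⁆ = 1 :=
        (comm_eq_one_iff _ _).mpr (hg_ctr g hg _ (comm_mem_ctr huV))
      rw [e2, conj_eq_comm_mul b u, comm_mul hs.comm (hs.norm (hAH hg))
        (comm_mem_of_mem_normalizer (hs.norm htb.mem) huV) huV, e3, one_mul] at e1
      calc b * ⁅g, u⁆ = b * ⁅g, u⁆ * b⁻¹ * b := by group
        _ = ⁅g, u⁆ * b := by rw [e1]
  obtain ⟨u₀, hu₀, hu₀c⟩ := htb.exists_mem_spn_not_mem_ctr hs hnb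
  have hu₀V := hSV hu₀
  have hne : ⁅b, u₀⁆ ≠ 1 := by
    intro h
    rw [comm_eq_one_iff] at h
    exact hu₀c (htb.mem_ctr_of_mem_spn_of_commute hs hu₀ h)
  have hSeq := htb.spn_eq_sup hs hnb hu₀ hu₀c
  have hdecomp : ∀ g ∈ A, ∃ k : ℕ,
      (b ^ k)⁻¹ * g ∈ A ⊓ Subgroup.centralizer (spn V K b : Set G) := by
    intro g hg
    obtain ⟨k, hk⟩ := exists_pow_of_card_prime htb.card (comm_mem_ctr hu₀V) hne
      (hcomm_ctr g hg u₀ hu₀)
    rw [← htb.comm_pow hu₀V k] at hk
    refine ⟨k, A.mul_mem (A.inv_mem (A.pow_mem hb k)) hg, ?_⟩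
    have h3 : spn V K b ≤ Subgroup.centralizer ({(b ^ k)⁻¹ * g} : Set G) := by
      rw [hSeq]
      apply sup_le
      · intro w hw
        rw [mem_centralizer_singleton_iff]
        have c1 : g * w = w * g := hg_ctr g hg w hw
        have c2 : b * w = w * b := htb.commute_ctr hw
        have c3 : Commute (b ^ k)⁻¹ w := ((show Commute b w from c2).pow_left k).inv_left
        calc (b ^ k)⁻¹ * g * w = (b ^ k)⁻¹ * (w * g) := by rw [mul_assoc, c1]
          _ = w * ((b ^ k)⁻¹ * g) := by rw [← mul_assoc, c3.eq, mul_assoc]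
      · rw [Subgroup.zpowers_le, mem_centralizer_singleton_iff]
        have c1 : g * u₀ * g⁻¹ = b ^ k * u₀ * (b ^ k)⁻¹ := by
          rw [conj_eq_comm_mul, conj_eq_comm_mul, hk]
        calc (b ^ k)⁻¹ * g * u₀ = (b ^ k)⁻¹ * (g * u₀ * g⁻¹) * g := by group
          _ = u₀ * ((b ^ k)⁻¹ * g) := by rw [c1]; group
    show (b ^ k)⁻¹ * g ∈ Subgroup.centralizer (spn V K b : Set G)
    rw [Subgroup.mem_centralizer_iff]
    intro s hs'
    exact (mem_centralizer_singleton_iff.mp (h3 hs')).symm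
  have hsup : (A ⊓ Subgroup.centralizer (spn V K b : Set G)) ⊔ Subgroup.zpowers b = A := by
    apply le_antisymm (sup_le inf_le_left (Subgroup.zpowers_le.mpr hb))
    intro g hg
    obtain ⟨k, hk⟩ := hdecomp g hg
    have e : g = b ^ k * ((b ^ k)⁻¹ * g) := by group
    rw [e]
    exact Subgroup.mul_mem _
      (Subgroup.mem_sup_right (Subgroup.pow_mem _ (Subgroup.mem_zpowers b) k))
      (Subgroup.mem_sup_left hk)
  have hinf : (A ⊓ Subgroup.centralizer (spn V K b : Set G)) ⊓ Subgroup.zpowers b = ⊥ := by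
    rw [eq_bot_iff]
    rintro y ⟨hy1, hy2⟩
    rw [Subgroup.mem_bot]
    by_contra hy
    have hz := zpowers_eq_of_card_prime htb.card_zpowers hy2 hy
    have h1 : b ∈ Subgroup.zpowers y := by rw [hz]; exact Subgroup.mem_zpowers b
    have h2 : b ∈ Subgroup.centralizer (spn V K b : Set G) :=
      (Subgroup.zpowers_le.mpr hy1.2) h1
    apply hne
    rw [comm_eq_one_iff]
    exact (Subgroup.mem_centralizer_iff.mp h2 u₀ hu₀).symm
  refine ⟨?_, hinf, hsup⟩
  have hcommA : ∀ x ∈ A ⊓ Subgroup.centralizer (spn V K b : Set G),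
      ∀ y ∈ Subgroup.zpowers b, x * y = y * x := fun x hx y hy =>
    hAc x hx.1 y (Subgroup.zpowers_le.mpr hb hy)
  have hcardA : Nat.card A =
      Nat.card ↥(A ⊓ Subgroup.centralizer (spn V K b : Set G)) * p := by
    have := card_sup_of_comm_of_inf_eq_bot hcommA hinf
    rw [hsup, htb.card_zpowers] at this
    exact this
  have h_le : spn V K b ⊔ (V ⊓ Subgroup.centralizer (A : Set G)) ≤
      V ⊓ Subgroup.centralizer
        ((A ⊓ Subgroup.centralizer (spn V K b : Set G) : Subgroup G) : Set G) := by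
    apply sup_le
    · exact le_inf hSV (Subgroup.le_centralizer_iff.mp inf_le_right)
    · exact inf_le_inf_left _ (Subgroup.centralizer_le
        (by exact_mod_cast (inf_le_left : A ⊓ Subgroup.centralizer (spn V K b : Set G) ≤ A)))
  have h_card := Cfsg.Agent.Lib.Helper91.card_sup_mul_card_inf_of_le_normalizer (spn V K b)
    (V ⊓ Subgroup.centralizer (A : Set G))
    (le_normalizer_of_comm (fun c hc s hs' => hs.comm c hc.1 s (hSV hs')))
  have h_inf : spn V K b ⊓ (V ⊓ Subgroup.centralizer (A : Set G)) ≤ ctr V b := by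
    rintro w ⟨hw1, hw2⟩
    exact htb.mem_ctr_of_mem_spn_of_commute hs hw1 (Subgroup.mem_centralizer_iff.mp hw2.2 b hb)
  have h1 := Subgroup.card_le_of_le h_inf
  have h2 := Subgroup.card_le_of_le h_le
  rw [htb.card] at h1
  rw [htb.card_spn hs hnb] at h_card
  have hkey : p * Nat.card ↥(V ⊓ Subgroup.centralizer (A : Set G)) ≤
      Nat.card ↥(V ⊓ Subgroup.centralizer
        ((A ⊓ Subgroup.centralizer (spn V K b : Set G) : Subgroup G) : Set G)) := by
    have h3 : p ^ 2 * Nat.card ↥(V ⊓ Subgroup.centralizer (A : Set G)) ≤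
        Nat.card ↥(V ⊓ Subgroup.centralizer
          ((A ⊓ Subgroup.centralizer (spn V K b : Set G) : Subgroup G) : Set G)) * p := by
      rw [← h_card]
      exact Nat.mul_le_mul h2 h1
    have h4 : p * Nat.card ↥(V ⊓ Subgroup.centralizer (A : Set G)) * p ≤
        Nat.card ↥(V ⊓ Subgroup.centralizer
          ((A ⊓ Subgroup.centralizer (spn V K b : Set G) : Subgroup G) : Set G)) * p := by
      have e : p * Nat.card ↥(V ⊓ Subgroup.centralizer (A : Set G)) * p =
          p ^ 2 * Nat.card ↥(V ⊓ Subgroup.centralizer (A : Set G)) := by ring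
      rw [e]; exact h3
    exact Nat.le_of_mul_le_mul_right h4 hpp.pos
  refine ⟨fun C hC => ?_, (Subgroup.commutator_mono inf_le_left inf_le_left).trans hA.2.1,
    fun x hx => hA.2.2 x hx.1⟩
  refine (hA.1 C (hC.trans inf_le_left)).trans ?_
  rw [hcardA, mul_assoc]
  exact Nat.mul_le_mul_left _ hkey

theorem offender_le_iSup (hs : Setup p V H K) (hCK : H ⊓ Subgroup.centralizer (K : Set G) ≤ K)
    (n : ℕ) : ∀ A : Subgroup G, Nat.card A = n → A ≤ H → Cfsg.IsBestOffenderOn p V A →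
      A ≤ ⨆ C : {C : Subgroup G // C ≤ A ∧ IsMinOff p V C}, (C : Subgroup G) := by
  have hpp : p.Prime := Fact.out
  induction n using Nat.strong_induction_on with
  | _ n ih =>
  intro A hn hAH hA
  by_cases hA1 : A = ⊥
  · rw [hA1]; exact bot_le
  obtain ⟨C₀, hC₀A, hC₀min⟩ := Finite.exists_le_minimal
    (p := fun C : Subgroup G => C ≤ A ∧ Cfsg.IsBestOffenderOn p V C ∧ C ≠ ⊥) (a := A)
    ⟨le_rfl, hA, hA1⟩
  have hmin0 : IsMinOff p V C₀ := by
    refine ⟨hC₀min.1.2.1, commutator_ne_bot hs (hC₀min.1.1.trans hAH) hC₀min.1.2.2, ?_⟩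
    intro B hB hBoff hBne
    refine le_antisymm hB (hC₀min.2 ⟨hB.trans hC₀min.1.1, hBoff, fun h => hBne ?_⟩ hB)
    rw [h, Subgroup.commutator_bot_right]
  obtain ⟨b, hC₀b, htb⟩ := hmin0.exists_transv hs hCK (hC₀min.1.1.trans hAH)
  have hb : b ∈ A := hC₀min.1.1 (hC₀b ▸ Subgroup.mem_zpowers b)
  obtain ⟨hA₂, hinf, hsup⟩ := offender_split hs hCK hAH hA hb htb
  obtain ⟨hAc, -⟩ := offender_props hs hAH hA
  have hcommA : ∀ x ∈ A ⊓ Subgroup.centralizer (spn V K b : Set G),
      ∀ y ∈ Subgroup.zpowers b, x * y = y * x := fun x hx y hy =>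
    hAc x hx.1 y (Subgroup.zpowers_le.mpr hb hy)
  have hcardA : Nat.card A =
      Nat.card ↥(A ⊓ Subgroup.centralizer (spn V K b : Set G)) * p := by
    have := card_sup_of_comm_of_inf_eq_bot hcommA hinf
    rw [hsup, htb.card_zpowers] at this
    exact this
  have hpos : 0 < Nat.card ↥(A ⊓ Subgroup.centralizer (spn V K b : Set G)) := Nat.card_pos
  have hlt : Nat.card ↥(A ⊓ Subgroup.centralizer (spn V K b : Set G)) < n := by
    rw [← hn, hcardA]
    have := hpp.one_lt
    nlinarith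
  have hIH := ih _ hlt (A ⊓ Subgroup.centralizer (spn V K b : Set G)) rfl
    (inf_le_left.trans hAH) hA₂
  conv_lhs => rw [← hsup]
  apply sup_le
  · refine hIH.trans ?_
    apply iSup_le
    intro C
    exact le_iSup_of_le
      (f := fun C : {C : Subgroup G // C ≤ A ∧ IsMinOff p V C} => (C : Subgroup G))
      ⟨C.1, C.2.1.trans inf_le_left, C.2.2⟩ le_rfl
  · rw [← hC₀b]
    exact le_iSup_of_le
      (f := fun C : {C : Subgroup G // C ≤ A ∧ IsMinOff p V C} => (C : Subgroup G))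
      ⟨C₀, hC₀min.1.1, hmin0⟩ le_rfl

theorem offender_indep (hs : Setup p V H K) (hCK : H ⊓ Subgroup.centralizer (K : Set G) ≤ K)
    {A : Subgroup G} (hAH : A ≤ H) (hA : Cfsg.IsBestOffenderOn p V A) :
    iSupIndep (fun C : {C : Subgroup G // C ≤ A ∧ IsMinOff p V C} => (C : Subgroup G)) := by
  rw [iSupIndep_def]
  rintro ⟨C, hCA, hCmin⟩
  obtain ⟨b, hCb, htb⟩ := hCmin.exists_transv hs hCK (hCA.trans hAH)
  have hb : b ∈ A := hCA (hCb ▸ Subgroup.mem_zpowers b)
  obtain ⟨-, hinf, hsup⟩ := offender_split hs hCK hAH hA hb htb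
  obtain ⟨hAc, -⟩ := offender_props hs hAH hA
  have hnb := exists_not_commute hs hCK htb.mem htb.pow htb.ne_one
  have hcommA : ∀ x ∈ A ⊓ Subgroup.centralizer (spn V K b : Set G),
      ∀ y ∈ Subgroup.zpowers b, x * y = y * x := fun x hx y hy =>
    hAc x hx.1 y (Subgroup.zpowers_le.mpr hb hy)
  have key : ∀ j : {C : Subgroup G // C ≤ A ∧ IsMinOff p V C},
      j ≠ ⟨C, hCA, hCmin⟩ → (j : Subgroup G) ≤ A ⊓ Subgroup.centralizer (spn V K b : Set G) := by
    rintro ⟨C', hC'A, hC'min⟩ hne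
    obtain ⟨b', hC'b, htb'⟩ := hC'min.exists_transv hs hCK (hC'A.trans hAH)
    have hb' : b' ∈ A := hC'A (hC'b ▸ Subgroup.mem_zpowers b')
    have hnb' := exists_not_commute hs hCK htb'.mem htb'.pow htb'.ne_one
    refine le_inf hC'A ?_
    show C' ≤ _
    rw [hC'b, Subgroup.zpowers_le]
    rcases htb.dichotomy hs htb' hnb hnb' with hE | ⟨-, hS, -⟩
    · exfalso
      apply hne
      apply Subtype.ext
      show C' = C
      rw [hC'b, hCb]
      have hb'E : b' ∈ EE K b := by rw [hE]; exact self_mem_EE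
      have hb'sup : b' ∈ (A ⊓ Subgroup.centralizer (spn V K b : Set G)) ⊔ Subgroup.zpowers b := by
        rw [hsup]; exact hb'
      obtain ⟨g', hg', z, hz, hbz⟩ :=
        (Cfsg.Agent.Lib.Helper25.mem_sup_of_commute hcommA).mp hb'sup
      have hg'E : g' ∈ EE K b := by
        have e : g' = b' * z⁻¹ := by rw [hbz]; group
        rw [e]
        exact Subgroup.mul_mem _ hb'E (Subgroup.inv_mem _ ((le_sup_right : Subgroup.zpowers b ≤ EE K b) hz))
      have h1 : g' ∈ EE K b ⊓ Subgroup.centralizer (spn V K b : Set G) := ⟨hg'E, hg'.2⟩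
      rw [htb.EE_inf_centralizer_spn hs hnb, Subgroup.mem_bot] at h1
      rw [h1, one_mul] at hbz
      have hle : Subgroup.zpowers b' ≤ Subgroup.zpowers b := by
        rw [Subgroup.zpowers_le, hbz]; exact hz
      exact Subgroup.eq_of_le_of_card_ge hle (by rw [htb.card_zpowers, htb'.card_zpowers])
    · show b' ∈ Subgroup.centralizer (spn V K b : Set G)
      rw [Subgroup.mem_centralizer_iff]
      intro s hs'
      exact (Subgroup.mem_centralizer_iff.mp (hS hs') b' self_mem_EE).symm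
  rw [disjoint_iff, eq_bot_iff]
  calc C ⊓ ⨆ (j : {C : Subgroup G // C ≤ A ∧ IsMinOff p V C})
        (_ : j ≠ ⟨C, hCA, hCmin⟩), (j : Subgroup G)
      ≤ C ⊓ (A ⊓ Subgroup.centralizer (spn V K b : Set G)) :=
        inf_le_inf_left _ (iSup₂_le key)
    _ = ⊥ := by rw [hCb, inf_comm]; exact hinf

/-- **Decomposition of best offenders** into minimal ones. -/
theorem offender_decomp (hs : Setup p V H K) (hCK : H ⊓ Subgroup.centralizer (K : Set G) ≤ K)
    {A : Subgroup G} (hAH : A ≤ H) (hA : Cfsg.IsBestOffenderOn p V A) :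
    ∃ (k : ℕ) (B : Fin k → Subgroup G), (∀ i, B i ≤ A ∧ IsMinOff p V (B i)) ∧ iSupIndep B ∧
      ⨆ i, B i = A := by
  haveI : Finite {C : Subgroup G // C ≤ A ∧ IsMinOff p V C} := Subtype.finite
  let e := Finite.equivFin {C : Subgroup G // C ≤ A ∧ IsMinOff p V C}
  refine ⟨Nat.card {C : Subgroup G // C ≤ A ∧ IsMinOff p V C},
    fun i => ((e.symm i : {C : Subgroup G // C ≤ A ∧ IsMinOff p V C}) : Subgroup G),
    fun i => (e.symm i).2, ?_, ?_⟩
  · exact (offender_indep hs hCK hAH hA).comp e.symm.injective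
  · apply le_antisymm (iSup_le fun i => (e.symm i).2.1)
    refine (offender_le_iSup hs hCK _ A rfl hAH hA).trans ?_
    apply iSup_le
    intro C
    have := le_iSup (fun i => ((e.symm i : {C : Subgroup G // C ≤ A ∧ IsMinOff p V C}) :
      Subgroup G)) (e C)
    simpa using this

end decomp

end Cfsg.Agent.Lib.Helper11.FF
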