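import Mathlib
import Cfsg.Agent.Lib.Helper11.FFOff
import Cfsg.Agent.Lib.Helper34.CoreAux

/-!
From the hypotheses of the failure-of-factorization statements (`V` elementary abelian, `H`
faithful on `V`, `C_H(O_{p'}(H)) ≤ O_{p'}(H)`) to the internal `Setup`.
-/

set_option autoImplicit false

namespace Cfsg.Agent.Lib.Helper11.FF

open scoped commutatorElement

variable {G : Type*} [Group G] [Finite G] {p : ℕ} [Fact p.Prime]

/-- the `p'`-core of `H`, viewed in `G`. -/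
abbrev coreOf (p : ℕ) (H : Subgroup G) : Subgroup G := (Cfsg.pPrimeCore p ↥H).map H.subtype

theorem setup_of_hyp (V H : Subgroup G) (hV : Cfsg.IsElementaryAbelian p V)
    (hHV : H ≤ Subgroup.normalizer (V : Set G))
    (hf : H ⊓ Subgroup.centralizer (V : Set G) = ⊥) : Setup p V H (coreOf p H) := by
  refine ⟨?_, hV.2, hHV, hf, ?_, ?_, ?_⟩
  · intro u hu v hv
    have h := hV.1.is_comm.comm (⟨u, hu⟩ : V) ⟨v, hv⟩
    exact congrArg Subtype.val h
  · rintro _ ⟨k, -, rfl⟩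
    exact k.2
  · intro h hh
    rw [Subgroup.mem_normalizer_iff]
    intro x
    constructor
    · rintro ⟨k, hk, rfl⟩
      refine ⟨⟨h, hh⟩ * k * ⟨h, hh⟩⁻¹, ?_, rfl⟩
      exact (Cfsg.pPrimeCore_normal p ↥H).conj_mem k hk ⟨h, hh⟩
    · rintro ⟨k, hk, hkx⟩
      refine ⟨⟨h, hh⟩⁻¹ * k * ⟨h, hh⟩, ?_, ?_⟩
      · have := (Cfsg.pPrimeCore_normal p ↥H).conj_mem k hk ⟨h, hh⟩⁻¹
        simpa using this
      · have h2 : (H.subtype k : G) = h * x * h⁻¹ := hkx
        simp only [Subgroup.subtype_apply, Subgroup.coe_mul, Subgroup.coe_inv] at h2 ⊢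
        rw [h2]; group
  · have h1 := Cfsg.Agent.Lib.Helper34.card_pPrimeCore_coprime p ↥H
    have h2 : Nat.card (coreOf p H) = Nat.card (Cfsg.pPrimeCore p ↥H) :=
      Nat.card_congr ((Cfsg.pPrimeCore p ↥H).equivMapOfInjective H.subtype
        (Subgroup.subtype_injective H)).toEquiv.symm
    rw [h2]; exact h1

theorem hCK_of_hyp (H : Subgroup G)
    (hS1 : Subgroup.centralizer (Cfsg.pPrimeCore p ↥H : Set ↥H) ≤ Cfsg.pPrimeCore p ↥H) :
    H ⊓ Subgroup.centralizer (coreOf p H : Set G) ≤ coreOf p H := by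
  rintro x ⟨hx, hxc⟩
  refine ⟨⟨x, hx⟩, hS1 ?_, rfl⟩
  rw [Subgroup.mem_centralizer_iff]
  intro k hk
  apply Subtype.ext
  have h1 : (k : G) ∈ coreOf p H := ⟨k, hk, rfl⟩
  exact Subgroup.mem_centralizer_iff.mp hxc _ h1

end Cfsg.Agent.Lib.Helper11.FF
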