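import Mathlib
import Cfsg.Agent.Lib.Helper53.PGroups
import Cfsg.Agent.Lib.Helper90.SylowCount

/-!
# Generic `p`-group lemmas used for rank-two `p`-groups with a coprime operator group (S1448)
-/

set_option autoImplicit false

namespace Cfsg.Agent.Lib.Helper11.R2C

universe u

/-- Adjoining an element of order `p` normalizing `H`, not in `H`, multiplies the order by `p`. -/
theorem card_sup_zpowers {P : Type*} [Group P] [Finite P] {p : ℕ} [Fact p.Prime] (H : Subgroup P)
    (y : P) (hy : y ^ p = 1) (hyH : y ∉ H) (hn : y ∈ Subgroup.normalizer (H : Set P)) :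
    Nat.card (H ⊔ Subgroup.zpowers y : Subgroup P) = Nat.card H * p := by
  have hpp : p.Prime := Fact.out
  have hy1 : y ≠ 1 := fun h => hyH (h ▸ H.one_mem)
  have ho : orderOf y = p := orderOf_eq_prime hy hy1
  have hc : Nat.card (Subgroup.zpowers y) = p := by rw [Nat.card_zpowers, ho]
  have hle : Subgroup.zpowers y ≤ Subgroup.normalizer (H : Set P) := by
    rw [Subgroup.zpowers_le]; exact hn
  have key := Cfsg.Agent.Lib.Helper90.card_sup_mul_card_inf_of_le_normalizer hle
  have hinf : Nat.card (Subgroup.zpowers y ⊓ H : Subgroup P) = 1 := by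
    have hdvd : Nat.card (Subgroup.zpowers y ⊓ H : Subgroup P) ∣ p := by
      rw [← hc]; exact Subgroup.card_dvd_of_le inf_le_left
    rcases (Nat.dvd_prime hpp).mp hdvd with h | h
    · exact h
    · exfalso
      have : Subgroup.zpowers y ⊓ H = Subgroup.zpowers y :=
        Subgroup.eq_of_le_of_card_ge inf_le_left (by rw [h, hc])
      have h2 : Subgroup.zpowers y ≤ H := by rw [← this]; exact inf_le_right
      exact hyH (h2 (Subgroup.mem_zpowers y))
  rw [hinf, mul_one, hc, sup_comm] at key
  rw [key, mul_comm]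

/-- In a finite `p`-group a normal subgroup of order `p` is central. -/
theorem le_center_of_card {P : Type*} [Group P] [Finite P] {p : ℕ} [Fact p.Prime]
    (hP : IsPGroup p P) (N : Subgroup P) [N.Normal] (hN : Nat.card N = p) :
    N ≤ Subgroup.center P := by
  have hpp : p.Prime := Fact.out
  have hne : N ≠ ⊥ := by
    intro h
    rw [h, Subgroup.card_bot] at hN
    exact hpp.one_lt.ne hN
  obtain ⟨z, hzN, hz1, hzc⟩ := Cfsg.Agent.Lib.Helper53.exists_mem_center_of_normal_of_ne_bot hP N hne
  have h1 : Subgroup.zpowers z ≤ N := by rw [Subgroup.zpowers_le]; exact hzN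
  have h2 : Nat.card (Subgroup.zpowers z) = p := by
    rw [Nat.card_zpowers]
    have h3 : orderOf z ∣ p := by
      rw [← hN]; exact (orderOf_dvd_natCard (⟨z, hzN⟩ : N)) |> fun h => by
        rwa [Subgroup.orderOf_mk] at h
    rcases (Nat.dvd_prime hpp).mp h3 with h | h
    · exact absurd (orderOf_eq_one_iff.mp h) hz1
    · exact h
  have h4 : Subgroup.zpowers z = N := Subgroup.eq_of_le_of_card_ge h1 (by rw [h2, hN])
  rw [← h4, Subgroup.zpowers_le]
  exact hzc

/-- If `N ≤ M` are normal subgroups of a finite `p`-group with `|M : N| = p`, then `[M, P] ≤ N`. -/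
theorem comm_mem_of_card {P : Type*} [Group P] [Finite P] {p : ℕ} [Fact p.Prime]
    (hP : IsPGroup p P) (N M : Subgroup P) [hNn : N.Normal] [hMn : M.Normal] (hNM : N ≤ M)
    (hc : Nat.card M = p * Nat.card N) : ∀ m ∈ M, ∀ g : P, g * m * g⁻¹ * m⁻¹ ∈ N := by
  have hpp : p.Prime := Fact.out
  have hsurj : Function.Surjective (QuotientGroup.mk' N) := QuotientGroup.mk'_surjective N
  haveI : (M.map (QuotientGroup.mk' N)).Normal := hMn.map _ hsurj
  have hPq : IsPGroup p (P ⧸ N) := hP.to_quotient N
  have hcard : Nat.card (M.map (QuotientGroup.mk' N)) = p := by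
    have h1 : (M.map (QuotientGroup.mk' N)).comap (QuotientGroup.mk' N) = M := by
      rw [Subgroup.comap_map_eq, QuotientGroup.ker_mk']
      exact sup_eq_left.mpr hNM
    have h2 : (M.map (QuotientGroup.mk' N)).index = M.index := by
      conv_rhs => rw [← h1]
      exact (Subgroup.index_comap_of_surjective _ hsurj).symm
    have h3 := Subgroup.card_mul_index (M.map (QuotientGroup.mk' N))
    have h4 := Subgroup.card_mul_index M
    have h5 := Subgroup.card_eq_card_quotient_mul_card_subgroup N
    rw [h2] at h3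
    have hpos : 0 < M.index := Nat.pos_of_ne_zero Subgroup.index_ne_zero_of_finite
    have hNpos : 0 < Nat.card N := Nat.card_pos
    -- card(map) * index = card(P/N); card M * index = card P = card(P/N) * card N
    have h6 : Nat.card (M.map (QuotientGroup.mk' N)) * M.index * Nat.card N
        = p * Nat.card N * M.index := by
      rw [h3, ← h5, ← h4, hc]
    have h7 : Nat.card (M.map (QuotientGroup.mk' N)) * (M.index * Nat.card N)
        = p * (M.index * Nat.card N) := by
      rw [← mul_assoc, h6]; ring
    exact Nat.eq_of_mul_eq_mul_right (Nat.mul_pos hpos hNpos) h7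
  have hcen := le_center_of_card hPq (M.map (QuotientGroup.mk' N)) hcard
  intro m hm g
  have h1 : QuotientGroup.mk' N m ∈ Subgroup.center (P ⧸ N) :=
    hcen (Subgroup.mem_map_of_mem _ hm)
  have h2 := Subgroup.mem_center_iff.mp h1 (QuotientGroup.mk' N g)
  have h3 : QuotientGroup.mk' N (g * m * g⁻¹ * m⁻¹) = 1 := by
    rw [map_mul, map_mul, map_mul, map_inv, map_inv, h2]
    group
  exact (QuotientGroup.eq_one_iff _).mp h3

end Cfsg.Agent.Lib.Helper11.R2C
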