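import Mathlib
import Cfsg.Agent.Lib.Helper11.R2C1
import Cfsg.Agent.S0637

/-!
# Rank-two `p`-groups, `p > 3`: the subgroup of elements of order dividing `p` (for S1448)
-/

set_option autoImplicit false
open Cfsg

namespace Cfsg.Agent.Lib.Helper11.R2C

universe u

theorem card_lt_of_lt {P : Type*} [Group P] [Finite P] {H K : Subgroup P} (h : H < K) :
    Nat.card H < Nat.card K := by
  by_contra hcon
  push Not at hcon
  exact h.ne (Subgroup.eq_of_le_of_card_ge h.le hcon)

/-- The join of two abelian subgroups which commute elementwise is abelian. -/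
theorem sup_comm_of {P : Type*} [Group P] (H K : Subgroup P)
    (hH : ∀ a ∈ H, ∀ b ∈ H, a * b = b * a) (hK : ∀ a ∈ K, ∀ b ∈ K, a * b = b * a)
    (hHK : ∀ a ∈ H, ∀ b ∈ K, a * b = b * a) :
    ∀ a ∈ H ⊔ K, ∀ b ∈ H ⊔ K, a * b = b * a := by
  have h1 : H ⊔ K = Subgroup.closure ((H : Set P) ∪ (K : Set P)) := by
    rw [Subgroup.closure_union, Subgroup.closure_eq, Subgroup.closure_eq]
  have h2 : IsMulCommutative (Subgroup.closure ((H : Set P) ∪ (K : Set P))) := by
    apply Subgroup.isMulCommutative_closure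
    rintro a (ha | ha) b (hb | hb)
    · exact hH a ha b hb
    · exact hHK a ha b hb
    · exact (hHK b hb a ha).symm
    · exact hK a ha b hb
  intro a ha b hb
  rw [h1] at ha hb
  have := h2.is_comm.comm ⟨a, ha⟩ ⟨b, hb⟩
  exact congrArg Subtype.val this

/-- A group of exponent `p` and order `p ^ 4` has an abelian subgroup of order greater than
`p ^ 2`. -/
theorem exists_abelian_of_exp {T : Type*} [Group T] [Finite T] {p : ℕ} [Fact p.Prime]
    (hexp : ∀ t : T, t ^ p = 1) (hcard : Nat.card T = p ^ 4) :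
    ∃ A : Subgroup T, (∀ a ∈ A, ∀ b ∈ A, a * b = b * a) ∧ p ^ 2 < Nat.card A := by
  have hpp : p.Prime := Fact.out
  have hT : IsPGroup p T := IsPGroup.of_card hcard
  by_contra hcon
  push Not at hcon
  have htop : (⊤ : Subgroup T) ≠ ⊥ := by
    intro h
    have h1 : Nat.card (⊤ : Subgroup T) = 1 := by rw [h, Subgroup.card_bot]
    rw [Subgroup.card_top, hcard] at h1
    have : 1 < p ^ 4 := Nat.one_lt_pow (by norm_num) hpp.one_lt
    omega
  obtain ⟨z, -, hz1, hzc⟩ :=
    Cfsg.Agent.Lib.Helper53.exists_mem_center_of_normal_of_ne_bot hT ⊤ htop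
  have hzcomm : ∀ t : T, t * z = z * t := fun t => Subgroup.mem_center_iff.mp hzc t
  have hZle : Subgroup.zpowers z ≤ Subgroup.center T := by
    rw [Subgroup.zpowers_le]; exact hzc
  haveI hZn : (Subgroup.zpowers z).Normal := by
    refine ⟨fun n hn g => ?_⟩
    have h1 : g * n * g⁻¹ = n := by
      have := Subgroup.mem_center_iff.mp (hZle hn) g
      rw [this, mul_assoc, mul_inv_cancel, mul_one]
    rw [h1]; exact hn
  have hZcard : Nat.card (Subgroup.zpowers z) = p := by
    rw [Nat.card_zpowers]; exact orderOf_eq_prime (hexp z) hz1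
  have hqcard : Nat.card (T ⧸ Subgroup.zpowers z) = p ^ 3 := by
    have h1 := Subgroup.card_eq_card_quotient_mul_card_subgroup (Subgroup.zpowers z)
    rw [hcard, hZcard] at h1
    have h2 : p ^ 3 * p = Nat.card (T ⧸ Subgroup.zpowers z) * p := by
      rw [← h1]; ring
    exact (Nat.eq_of_mul_eq_mul_right hpp.pos h2).symm
  have hTq : IsPGroup p (T ⧸ Subgroup.zpowers z) := hT.to_quotient _
  have htopq : (⊤ : Subgroup (T ⧸ Subgroup.zpowers z)) ≠ ⊥ := by
    intro h
    have h1 : Nat.card (⊤ : Subgroup (T ⧸ Subgroup.zpowers z)) = 1 := by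
      rw [h, Subgroup.card_bot]
    rw [Subgroup.card_top, hqcard] at h1
    have : 1 < p ^ 3 := Nat.one_lt_pow (by norm_num) hpp.one_lt
    omega
  obtain ⟨kb, -, hkb1, hkbc⟩ :=
    Cfsg.Agent.Lib.Helper53.exists_mem_center_of_normal_of_ne_bot hTq ⊤ htopq
  obtain ⟨k, rfl⟩ := QuotientGroup.mk_surjective kb
  have hkZ : k ∉ Subgroup.zpowers z := by
    intro h
    exact hkb1 ((QuotientGroup.eq_one_iff k).mpr h)
  have hkc : ∀ t : T, t * k * t⁻¹ * k⁻¹ ∈ Subgroup.zpowers z := by
    intro t
    have h2 := Subgroup.mem_center_iff.mp hkbc (QuotientGroup.mk t)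
    have h3 : (QuotientGroup.mk (t * k * t⁻¹ * k⁻¹) : T ⧸ Subgroup.zpowers z) = 1 := by
      rw [QuotientGroup.mk_mul, QuotientGroup.mk_mul, QuotientGroup.mk_mul, QuotientGroup.mk_inv,
        QuotientGroup.mk_inv, h2]
      group
    exact (QuotientGroup.eq_one_iff _).mp h3
  let κ : T →* Subgroup.zpowers z :=
    { toFun := fun t => ⟨t * k * t⁻¹ * k⁻¹, hkc t⟩
      map_one' := by
        apply Subtype.ext
        simp
      map_mul' := by
        intro t t'
        apply Subtype.ext
        have hc : (t' * k * t'⁻¹ * k⁻¹) * t⁻¹ = t⁻¹ * (t' * k * t'⁻¹ * k⁻¹) :=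
          (Subgroup.mem_center_iff.mp (hZle (hkc t')) t⁻¹).symm
        show t * t' * k * (t * t')⁻¹ * k⁻¹ = t * k * t⁻¹ * k⁻¹ * (t' * k * t'⁻¹ * k⁻¹)
        have hc2 : (t' * k * t'⁻¹ * k⁻¹) * (t * k * t⁻¹ * k⁻¹)
            = (t * k * t⁻¹ * k⁻¹) * (t' * k * t'⁻¹ * k⁻¹) :=
          (Subgroup.mem_center_iff.mp (hZle (hkc t')) _).symm
        calc t * t' * k * (t * t')⁻¹ * k⁻¹
            = t * ((t' * k * t'⁻¹ * k⁻¹) * k) * t⁻¹ * k⁻¹ := by group
          _ = t * (t' * k * t'⁻¹ * k⁻¹) * (k * t⁻¹ * k⁻¹) := by group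
          _ = (t' * k * t'⁻¹ * k⁻¹) * t * (k * t⁻¹ * k⁻¹) := by
            rw [← Subgroup.mem_center_iff.mp (hZle (hkc t')) t]
          _ = (t' * k * t'⁻¹ * k⁻¹) * (t * k * t⁻¹ * k⁻¹) := by group
          _ = _ := hc2 }
  have hκ : ∀ t : T, ((κ t : Subgroup.zpowers z) : T) = t * k * t⁻¹ * k⁻¹ := fun t => rfl
  have hker : ∀ t : T, t ∈ κ.ker ↔ t * k = k * t := by
    intro t
    rw [MonoidHom.mem_ker, Subtype.ext_iff, hκ]
    constructor
    · intro h
      have h1 : t * k * t⁻¹ * k⁻¹ * k * t = k * t := by rw [h]; simp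
      rw [← h1]; group
    · intro h
      show t * k * t⁻¹ * k⁻¹ = 1
      rw [h]; group
  have hkercard : p ^ 3 ≤ Nat.card κ.ker := by
    have h1 := Subgroup.card_mul_index κ.ker
    rw [Subgroup.index_ker, hcard] at h1
    have h2 : Nat.card κ.range ≤ p := by
      rw [← hZcard]; exact Subgroup.card_le_card_group _
    have h3 : Nat.card κ.ker * Nat.card κ.range ≤ Nat.card κ.ker * p :=
      Nat.mul_le_mul_left _ h2
    rw [h1] at h3
    have h4 : p ^ 3 * p ≤ Nat.card κ.ker * p := by
      calc p ^ 3 * p = p ^ 4 := by ring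
        _ ≤ _ := h3
    exact Nat.le_of_mul_le_mul_right h4 hpp.pos
  -- K = ⟨z, k⟩
  have hKab : ∀ a ∈ Subgroup.closure ({z, k} : Set T), ∀ b ∈ Subgroup.closure ({z, k} : Set T),
      a * b = b * a := by
    have h2 : IsMulCommutative (Subgroup.closure ({z, k} : Set T)) := by
      apply Subgroup.isMulCommutative_closure
      intro a ha b hb
      simp only [Set.mem_insert_iff, Set.mem_singleton_iff] at ha hb
      rcases ha with rfl | rfl <;> rcases hb with rfl | rfl
      · rfl
      · exact (hzcomm _).symm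
      · exact hzcomm _
      · rfl
    intro a ha b hb
    exact congrArg Subtype.val (h2.is_comm.comm ⟨a, ha⟩ ⟨b, hb⟩)
  have hKle := hcon _ hKab
  have hzK : z ∈ Subgroup.closure ({z, k} : Set T) := Subgroup.subset_closure (by simp)
  have hkK : k ∈ Subgroup.closure ({z, k} : Set T) := Subgroup.subset_closure (by simp)
  have hKge : p ^ 2 ≤ Nat.card (Subgroup.closure ({z, k} : Set T)) := by
    obtain ⟨m, hm⟩ := (hT.to_subgroup (Subgroup.closure ({z, k} : Set T))).exists_card_eq
    have hlt : Nat.card (Subgroup.zpowers z) < Nat.card (Subgroup.closure ({z, k} : Set T)) := by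
      apply card_lt_of_lt
      refine lt_of_le_of_ne ?_ ?_
      · rw [Subgroup.zpowers_le]; exact hzK
      · intro h
        exact hkZ (h ▸ hkK)
    rw [hZcard, hm] at hlt
    have hm2 : 2 ≤ m := by
      by_contra hlt2
      have : m ≤ 1 := by omega
      have h5 : p ^ m ≤ p ^ 1 := Nat.pow_le_pow_right hpp.pos this
      rw [pow_one] at h5
      omega
    rw [hm]
    exact Nat.pow_le_pow_right hpp.pos hm2
  have hnot : ¬ κ.ker ≤ Subgroup.closure ({z, k} : Set T) := by
    intro hle
    have h1 := Subgroup.card_le_of_le hle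
    have h2 : p ^ 2 < p ^ 3 := Nat.pow_lt_pow_right hpp.one_lt (by norm_num)
    omega
  obtain ⟨y, hyker, hyK⟩ := SetLike.not_le_iff_exists.mp hnot
  have hyk : y * k = k * y := (hker y).mp hyker
  have hAab : ∀ a ∈ Subgroup.closure ({z, k, y} : Set T),
      ∀ b ∈ Subgroup.closure ({z, k, y} : Set T), a * b = b * a := by
    have h2 : IsMulCommutative (Subgroup.closure ({z, k, y} : Set T)) := by
      apply Subgroup.isMulCommutative_closure
      intro a ha b hb
      simp only [Set.mem_insert_iff, Set.mem_singleton_iff] at ha hb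
      rcases ha with rfl | rfl | rfl <;> rcases hb with rfl | rfl | rfl
      · rfl
      · exact (hzcomm _).symm
      · exact (hzcomm _).symm
      · exact hzcomm _
      · rfl
      · exact hyk.symm
      · exact hzcomm _
      · exact hyk
      · rfl
    intro a ha b hb
    exact congrArg Subtype.val (h2.is_comm.comm ⟨a, ha⟩ ⟨b, hb⟩)
  have hAle := hcon _ hAab
  have hlt : Nat.card (Subgroup.closure ({z, k} : Set T))
      < Nat.card (Subgroup.closure ({z, k, y} : Set T)) := by
    apply card_lt_of_lt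
    refine lt_of_le_of_ne ?_ ?_
    · apply Subgroup.closure_mono
      intro a ha
      simp only [Set.mem_insert_iff, Set.mem_singleton_iff] at ha ⊢
      rcases ha with rfl | rfl
      · left; rfl
      · right; left; rfl
    · intro h
      apply hyK
      rw [h]
      exact Subgroup.subset_closure (by simp)
  omega

end Cfsg.Agent.Lib.Helper11.R2C
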