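import Mathlib
import Cfsg.Agent.Lib.Helper11.R2C2

/-!
# Rank-two `p`-groups, `p > 3`: existence of the configuration `Data` (for S1448)
-/

set_option autoImplicit false
open Cfsg

namespace Cfsg.Agent.Lib.Helper11.R2C

universe u

/-- The configuration: `Z < W < E`, `E` the set of elements of order dividing `p` (of order
`p ^ 3`), `W` normal abelian of order `p ^ 2`, `Z` central of order `p`, `x ∈ E` not centralizing
`W`. -/
structure Data (p : ℕ) (P : Type*) [Group P] (Z W E : Subgroup P) (x : P) : Prop where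
  hZc : Z ≤ Subgroup.center P
  hZcard : Nat.card Z = p
  hZW : Z ≤ W
  hWn : W.Normal
  hWab : ∀ a ∈ W, ∀ b ∈ W, a * b = b * a
  hWcard : Nat.card W = p ^ 2
  hWE : W ≤ E
  hEcard : Nat.card E = p ^ 3
  hE : ∀ g : P, g ^ p = 1 ↔ g ∈ E
  hx : x ∈ E
  hxW : x ∉ W
  hxC : ∃ w ∈ W, x * w ≠ w * x
  hWZ : ∀ w ∈ W, ∀ g : P, g * w * g⁻¹ * w⁻¹ ∈ Z
  hEW : ∀ e ∈ E, ∀ g : P, g * e * g⁻¹ * e⁻¹ ∈ W
  hEdec : ∀ e ∈ E, ∃ n : ℕ, ∃ w ∈ W, e = x ^ n * w

/-- Elements of `⟨y⟩ N` for a normal subgroup `N`. -/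
theorem mem_zpowers_sup {P : Type*} [Group P] [Finite P] (N : Subgroup P) [N.Normal] (y : P)
    (e : P) (he : e ∈ N ⊔ Subgroup.zpowers y) : ∃ n : ℕ, ∃ w ∈ N, e = y ^ n * w := by
  rw [sup_comm] at he
  have h1 : e ∈ ((Subgroup.zpowers y ⊔ N : Subgroup P) : Set P) := he
  rw [Subgroup.mul_normal] at h1
  obtain ⟨t, ht, w, hw, rfl⟩ := h1
  have ht' : t ∈ Submonoid.powers y := mem_powers_iff_mem_zpowers.mpr ht
  obtain ⟨n, rfl⟩ := (Submonoid.mem_powers_iff _ _).mp ht'
  exact ⟨n, w, hw, rfl⟩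

theorem exists_data {P : Type u} [Group P] [Finite P] {p : ℕ} [Fact p.Prime] (hp : 3 < p)
    (hP : IsPGroup p P)
    (hr : ∀ A : Subgroup P, (∀ a ∈ A, ∀ b ∈ A, a * b = b * a) → (∀ a ∈ A, a ^ p = 1) →
      Nat.card A ≤ p ^ 2)
    (W : Subgroup P) [hWn : W.Normal] (hWab : ∀ a ∈ W, ∀ b ∈ W, a * b = b * a)
    (hWexp : ∀ a ∈ W, a ^ p = 1) (hWcard : Nat.card W = p ^ 2)
    (x : P) (hx : x ^ p = 1) (hxW : x ∉ W) :
    ∃ Z E : Subgroup P, Data p P Z W E x := by
  have hpp : p.Prime := Fact.out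
  have hxnW : x ∈ Subgroup.normalizer (W : Set P) := by
    rw [Subgroup.normalizer_eq_top]; exact Subgroup.mem_top x
  have hE0card : Nat.card (W ⊔ Subgroup.zpowers x : Subgroup P) = p ^ 2 * p := by
    rw [card_sup_zpowers W x hx hxW hxnW, hWcard]
  have hdec := mem_zpowers_sup W x
  -- A1
  have hxC : ∃ w ∈ W, x * w ≠ w * x := by
    by_contra hcon
    push Not at hcon
    have hab := sup_comm_of W (Subgroup.zpowers x) hWab
      (by
        rintro a ⟨i, rfl⟩ b ⟨j, rfl⟩
        exact ((Commute.refl x).zpow_zpow i j).eq)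
      (by
        rintro a ha b ⟨j, rfl⟩
        have h1 : Commute x a := hcon a ha
        exact (h1.zpow_left j).eq.symm)
    have hexp : ∀ a ∈ W ⊔ Subgroup.zpowers x, a ^ p = 1 := by
      intro a ha
      obtain ⟨n, w, hw, rfl⟩ := hdec a ha
      have h1 : Commute (x ^ n) w := (show Commute x w from hcon w hw).pow_left n
      rw [h1.mul_pow, hWexp w hw, ← pow_mul, mul_comm, pow_mul, hx, one_pow, one_mul]
    have h2 := hr _ hab hexp
    rw [hE0card] at h2
    have h3 : p ^ 2 * 1 < p ^ 2 * p :=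
      Nat.mul_lt_mul_of_pos_left hpp.one_lt (pow_pos hpp.pos 2)
    omega
  -- A2
  have hxE0 : x ∈ W ⊔ Subgroup.zpowers x := le_sup_right (α := Subgroup P) (Subgroup.mem_zpowers x)
  have hE0exp : ∀ e ∈ W ⊔ Subgroup.zpowers x, e ^ p = 1 := by
    have hreg : IsRegularPGroup p ↥(W ⊔ Subgroup.zpowers x : Subgroup P) :=
      Cfsg.Agent.S0637.regular_of_card hp (n := 3) (by norm_num) (by rw [hE0card]; ring)
    obtain ⟨H, -, hH⟩ := Cfsg.Agent.S4225.result hreg 1
    have hmem : ∀ y : ↥(W ⊔ Subgroup.zpowers x : Subgroup P), y ∈ H ↔ y ^ p = 1 := by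
      intro y
      have : y ∈ (H : Set _) ↔ y ^ p = 1 := by rw [hH]; simp
      exact this
    intro e he
    obtain ⟨n, w, hw, rfl⟩ := hdec e he
    have hwE : w ∈ W ⊔ Subgroup.zpowers x := le_sup_left (α := Subgroup P) hw
    have h1 : (⟨x, hxE0⟩ : ↥(W ⊔ Subgroup.zpowers x : Subgroup P)) ∈ H :=
      (hmem _).mpr (Subtype.ext (by simpa using hx))
    have h2 : (⟨w, hwE⟩ : ↥(W ⊔ Subgroup.zpowers x : Subgroup P)) ∈ H :=
      (hmem _).mpr (Subtype.ext (by simpa using hWexp w hw))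
    have h3 := H.mul_mem (H.pow_mem h1 n) h2
    have h4 := congrArg Subtype.val ((hmem _).mp h3)
    simpa using h4
  -- A3
  have hA3 : ∀ y : P, y ^ p = 1 →
      y ∈ Subgroup.normalizer ((W ⊔ Subgroup.zpowers x : Subgroup P) : Set P) →
      y ∈ W ⊔ Subgroup.zpowers x := by
    intro y hy hyn
    by_contra hyE
    have hHcard : Nat.card ((W ⊔ Subgroup.zpowers x) ⊔ Subgroup.zpowers y : Subgroup P)
        = p ^ 2 * p * p := by
      rw [card_sup_zpowers _ y hy hyE hyn, hE0card]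
    have hreg : IsRegularPGroup p ↥((W ⊔ Subgroup.zpowers x) ⊔ Subgroup.zpowers y : Subgroup P) :=
      Cfsg.Agent.S0637.regular_of_card hp (n := 4) le_rfl (by rw [hHcard]; ring)
    obtain ⟨H', -, hH'⟩ := Cfsg.Agent.S4225.result hreg 1
    have hmem : ∀ t : ↥((W ⊔ Subgroup.zpowers x) ⊔ Subgroup.zpowers y : Subgroup P),
        t ∈ H' ↔ t ^ p = 1 := by
      intro t
      have : t ∈ (H' : Set _) ↔ t ^ p = 1 := by rw [hH']; simp
      exact this
    have hle : (W ⊔ Subgroup.zpowers x) ⊔ Subgroup.zpowers y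
        ≤ H'.map (Subgroup.subtype _) := by
      apply sup_le
      · intro e he
        exact ⟨⟨e, le_sup_left (α := Subgroup P) he⟩,
          (hmem _).mpr (Subtype.ext (by simpa using hE0exp e he)), rfl⟩
      · rw [Subgroup.zpowers_le]
        exact ⟨⟨y, le_sup_right (α := Subgroup P) (Subgroup.mem_zpowers y)⟩,
          (hmem _).mpr (Subtype.ext (by simpa using hy)), rfl⟩
    have hHexp : ∀ t : ↥((W ⊔ Subgroup.zpowers x) ⊔ Subgroup.zpowers y : Subgroup P),
        t ^ p = 1 := by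
      intro t
      obtain ⟨t', ht', h⟩ := hle t.2
      have : t' = t := Subtype.ext h
      rw [← this]
      exact (hmem t').mp ht'
    obtain ⟨A, hAab, hAcard⟩ := exists_abelian_of_exp hHexp (by rw [hHcard]; ring)
    have h1 := hr (A.map (Subgroup.subtype _))
      (by
        rintro _ ⟨a, ha, rfl⟩ _ ⟨b, hb, rfl⟩
        exact congrArg Subtype.val (hAab a ha b hb))
      (by
        rintro _ ⟨a, ha, rfl⟩
        have := congrArg Subtype.val (hHexp a)
        simpa using this)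
    rw [Subgroup.card_map_of_injective (Subgroup.subtype_injective _)] at h1
    omega
  -- A4
  have hN : Subgroup.normalizer ((W ⊔ Subgroup.zpowers x : Subgroup P) : Set P) = ⊤ := by
    by_contra hne
    haveI := hP.isNilpotent
    have hnc := Group.normalizerCondition_of_isNilpotent (G := P)
    have hlt := hnc (Subgroup.normalizer ((W ⊔ Subgroup.zpowers x : Subgroup P) : Set P))
      (lt_top_iff_ne_top.mpr hne)
    obtain ⟨g, hg, hgN⟩ := SetLike.exists_of_lt hlt
    apply hgN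
    have key : ∀ g' ∈ Subgroup.normalizer ((Subgroup.normalizer
        ((W ⊔ Subgroup.zpowers x : Subgroup P) : Set P) : Subgroup P) : Set P),
        ∀ e ∈ W ⊔ Subgroup.zpowers x, g' * e * g'⁻¹ ∈ W ⊔ Subgroup.zpowers x := by
      intro g' hg' e he
      apply hA3
      · rw [conj_pow, hE0exp e he, mul_one, mul_inv_cancel]
      · exact (Subgroup.mem_normalizer_iff.mp hg' e).mp (Subgroup.le_normalizer he)
    rw [Subgroup.mem_normalizer_iff]
    intro e
    constructor
    · exact key g hg e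
    · intro h
      have h2 := key g⁻¹ (inv_mem hg) _ h
      have e2 : g⁻¹ * (g * e * g⁻¹) * g⁻¹⁻¹ = e := by group
      rwa [e2] at h2
  haveI hE0n : (W ⊔ Subgroup.zpowers x : Subgroup P).Normal := Subgroup.normalizer_eq_top_iff.mp hN
  -- A6
  have hWne : W ≠ ⊥ := by
    intro h
    rw [h, Subgroup.card_bot] at hWcard
    have : 1 < p ^ 2 := Nat.one_lt_pow (by norm_num) hpp.one_lt
    omega
  obtain ⟨z0, hz0W, hz01, hz0c⟩ :=
    Cfsg.Agent.Lib.Helper53.exists_mem_center_of_normal_of_ne_bot hP W hWne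
  have hZc : Subgroup.zpowers z0 ≤ Subgroup.center P := by
    rw [Subgroup.zpowers_le]; exact hz0c
  haveI hZn : (Subgroup.zpowers z0).Normal := by
    refine ⟨fun n hn g => ?_⟩
    have h1 : g * n * g⁻¹ = n := by
      have := Subgroup.mem_center_iff.mp (hZc hn) g
      rw [this, mul_assoc, mul_inv_cancel, mul_one]
    rw [h1]; exact hn
  have hZcard : Nat.card (Subgroup.zpowers z0) = p := by
    rw [Nat.card_zpowers]; exact orderOf_eq_prime (hWexp z0 hz0W) hz01
  have hZW : Subgroup.zpowers z0 ≤ W := by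
    rw [Subgroup.zpowers_le]; exact hz0W
  refine ⟨Subgroup.zpowers z0, W ⊔ Subgroup.zpowers x,
    { hZc := hZc
      hZcard := hZcard
      hZW := hZW
      hWn := hWn
      hWab := hWab
      hWcard := hWcard
      hWE := le_sup_left
      hEcard := by rw [hE0card]; ring
      hE := fun g => ⟨fun h => hA3 g h (by rw [hN]; exact Subgroup.mem_top g), hE0exp g⟩
      hx := hxE0
      hxW := hxW
      hxC := hxC
      hWZ := comm_mem_of_card hP (Subgroup.zpowers z0) W hZW (by rw [hWcard, hZcard]; ring)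
      hEW := comm_mem_of_card hP W (W ⊔ Subgroup.zpowers x) le_sup_left
        (by rw [hE0card, hWcard]; ring)
      hEdec := hdec }⟩

end Cfsg.Agent.Lib.Helper11.R2C
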