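import Mathlib
import Cfsg.Agent.Lib.Helper11.R2C3

/-!
# Rank-two `p`-groups, `p > 3`: consequences of the configuration `Data` (for S1448)
-/

set_option autoImplicit false
set_option linter.unusedSectionVars false
open Cfsg
open scoped commutatorElement

namespace Cfsg.Agent.Lib.Helper11.R2C

universe u

/-- The commutator map `c ↦ x c x⁻¹ c⁻¹`. -/
def th {P : Type*} [Group P] (x c : P) : P := x * c * x⁻¹ * c⁻¹

theorem th_one {P : Type*} [Group P] (x : P) : th x 1 = 1 := by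
  unfold th; group

theorem th_eq_one_iff {P : Type*} [Group P] (x c : P) : th x c = 1 ↔ x * c = c * x := by
  unfold th
  constructor
  · intro h1
    have h2 : x * c * x⁻¹ * c⁻¹ * c * x = c * x := by rw [h1]; simp
    rw [← h2]; group
  · intro h1
    rw [h1]; group

namespace Data

variable {p : ℕ} [hpF : Fact p.Prime] {P : Type u} [Group P] [Finite P] {Z W E : Subgroup P}
  {x : P}

theorem xp (h : Data p P Z W E x) : x ^ p = 1 := (h.hE x).mpr h.hx

theorem Wexp (h : Data p P Z W E x) : ∀ w ∈ W, w ^ p = 1 := fun w hw => (h.hE w).mpr (h.hWE hw)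

theorem x_ne_one (h : Data p P Z W E x) : x ≠ 1 := fun e => h.hxW (e ▸ W.one_mem)

theorem orderOf_x (h : Data p P Z W E x) : orderOf x = p := orderOf_eq_prime h.xp h.x_ne_one

theorem Zcomm (h : Data p P Z W E x) : ∀ z ∈ Z, ∀ g : P, g * z = z * g :=
  fun z hz g => Subgroup.mem_center_iff.mp (h.hZc hz) g

theorem Znormal (h : Data p P Z W E x) : Z.Normal := by
  refine ⟨fun n hn g => ?_⟩
  have h1 : g * n * g⁻¹ = n := by
    rw [h.Zcomm n hn g, mul_assoc, mul_inv_cancel, mul_one]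
  rw [h1]; exact hn

theorem comm_mem_W (h : Data p P Z W E x) (e : P) (he : e ∈ E) (g : P) :
    e * g * e⁻¹ * g⁻¹ ∈ W := by
  have h1 := h.hEW e⁻¹ (E.inv_mem he) g
  have h2 := h.hWn.conj_mem _ h1 e
  have e2 : e * (g * e⁻¹ * g⁻¹ * e⁻¹⁻¹) * e⁻¹ = e * g * e⁻¹ * g⁻¹ := by group
  rwa [e2] at h2

theorem th_mem_W (h : Data p P Z W E x) (c : P) : th x c ∈ W := h.comm_mem_W x h.hx c

theorem W_le_C (h : Data p P Z W E x) : W ≤ Subgroup.centralizer (W : Set P) := by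
  intro a ha
  rw [Subgroup.mem_centralizer_iff]
  intro b hb
  exact h.hWab b hb a ha

theorem th_mul (h : Data p P Z W E x) (c c' : P) (hc : c ∈ Subgroup.centralizer (W : Set P)) :
    th x (c * c') = th x c * th x c' := by
  have h1 : th x c' * c = c * th x c' := Subgroup.mem_centralizer_iff.mp hc _ (h.th_mem_W c')
  unfold th at h1 ⊢
  calc x * (c * c') * x⁻¹ * (c * c')⁻¹
      = x * c * x⁻¹ * c⁻¹ * (c * (x * c' * x⁻¹ * c'⁻¹)) * c⁻¹ := by group
    _ = x * c * x⁻¹ * c⁻¹ * ((x * c' * x⁻¹ * c'⁻¹) * c) * c⁻¹ := by rw [h1]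
    _ = _ := by group

theorem th_pow (h : Data p P Z W E x) (c : P) (hc : c ∈ Subgroup.centralizer (W : Set P))
    (n : ℕ) : th x (c ^ n) = th x c ^ n := by
  induction n with
  | zero => simp [th]
  | succ n ih => rw [pow_succ, h.th_mul _ _ (pow_mem hc n), ih, pow_succ]

theorem th_inv (h : Data p P Z W E x) (c : P) (hc : c ∈ Subgroup.centralizer (W : Set P)) :
    th x c⁻¹ = (th x c)⁻¹ := by
  have h1 := h.th_mul c c⁻¹ hc
  rw [mul_inv_cancel, th_one] at h1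
  exact eq_inv_of_mul_eq_one_right h1.symm

theorem th_mem_Z (h : Data p P Z W E x) (w : P) (hw : w ∈ W) : th x w ∈ Z := h.hWZ w hw x

theorem th_Z (h : Data p P Z W E x) (z : P) (hz : z ∈ Z) : th x z = 1 :=
  (th_eq_one_iff x z).mpr (h.Zcomm z hz x)

theorem exists_w0 (h : Data p P Z W E x) : ∃ w0 ∈ W, th x w0 ≠ 1 := by
  obtain ⟨w, hw, hne⟩ := h.hxC
  exact ⟨w, hw, fun h1 => hne ((th_eq_one_iff x w).mp h1)⟩

theorem Z_eq_zpowers (h : Data p P Z W E x) (z0 : P) (hz0 : z0 ∈ Z) (hne : z0 ≠ 1) :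
    ∀ z ∈ Z, ∃ n : ℕ, z = z0 ^ n := by
  have hpp : p.Prime := Fact.out
  have ho : orderOf z0 = p := by
    have h3 : orderOf z0 ∣ p := by
      rw [← h.hZcard]
      have := orderOf_dvd_natCard (⟨z0, hz0⟩ : Z)
      rwa [Subgroup.orderOf_mk] at this
    rcases (Nat.dvd_prime hpp).mp h3 with h4 | h4
    · exact absurd (orderOf_eq_one_iff.mp h4) hne
    · exact h4
  have h1 : Subgroup.zpowers z0 = Z :=
    Subgroup.eq_of_le_of_card_ge (by rw [Subgroup.zpowers_le]; exact hz0)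
      (by rw [Nat.card_zpowers, ho, h.hZcard])
  intro z hz
  rw [← h1] at hz
  obtain ⟨n, hn⟩ := (Submonoid.mem_powers_iff _ _).mp (mem_powers_iff_mem_zpowers.mpr hz)
  exact ⟨n, hn.symm⟩

theorem exists_th_eq (h : Data p P Z W E x) (z : P) (hz : z ∈ Z) : ∃ w ∈ W, th x w = z := by
  obtain ⟨w0, hw0, hne⟩ := h.exists_w0
  obtain ⟨n, rfl⟩ := h.Z_eq_zpowers _ (h.th_mem_Z w0 hw0) hne z hz
  exact ⟨w0 ^ n, pow_mem hw0 n, h.th_pow w0 (h.W_le_C hw0) n⟩

theorem mem_Q_of (h : Data p P Z W E x) (c : P) (hc : c ∈ Subgroup.centralizer (W : Set P))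
    (h1 : th x c = 1) : c ∈ Subgroup.centralizer (E : Set P) := by
  rw [Subgroup.mem_centralizer_iff]
  intro e he
  obtain ⟨n, w, hw, rfl⟩ := h.hEdec e he
  have hx : Commute x c := (th_eq_one_iff x c).mp h1
  have hw' : Commute w c := Subgroup.mem_centralizer_iff.mp hc w hw
  exact ((hx.pow_left n).mul_left hw').eq

theorem x_not_C (h : Data p P Z W E x) : x ∉ Subgroup.centralizer (W : Set P) := by
  intro hx
  obtain ⟨w, hw, hne⟩ := h.hxC
  exact hne (Subgroup.mem_centralizer_iff.mp hx w hw).symm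

theorem E_inf_C (h : Data p P Z W E x) (e : P) (he : e ∈ E)
    (hc : e ∈ Subgroup.centralizer (W : Set P)) : e ∈ W := by
  have hpp : p.Prime := Fact.out
  obtain ⟨n, w, hw, rfl⟩ := h.hEdec e he
  have hxn : x ^ n ∈ Subgroup.centralizer (W : Set P) := by
    have := mul_mem hc (inv_mem (h.W_le_C hw))
    simpa using this
  by_cases hdvd : p ∣ n
  · obtain ⟨m, rfl⟩ := hdvd
    rw [pow_mul, h.xp, one_pow, one_mul]; exact hw
  · exfalso
    have hcop : Nat.Coprime n p := ((Nat.Prime.coprime_iff_not_dvd hpp).mpr hdvd).symm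
    obtain ⟨m, -, hm⟩ := Nat.exists_mul_mod_eq_one_of_coprime hcop hpp.one_lt
    have h1 : x ^ (n * m) = x ^ 1 := by
      rw [pow_eq_pow_iff_modEq, h.orderOf_x]
      show n * m % p = 1 % p
      rw [hm, Nat.mod_eq_of_lt hpp.one_lt]
    rw [pow_one, pow_mul] at h1
    exact h.x_not_C (h1 ▸ pow_mem hxn m)

theorem W_dec (h : Data p P Z W E x) (v : P) (hv : v ∈ W) (hvZ : v ∉ Z) :
    ∀ w ∈ W, ∃ n : ℕ, ∃ z ∈ Z, w = v ^ n * z := by
  haveI : Z.Normal := h.Znormal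
  have hcard : Nat.card (Z ⊔ Subgroup.zpowers v : Subgroup P) = p * p := by
    rw [card_sup_zpowers Z v (h.Wexp v hv) hvZ
      (by rw [Subgroup.normalizer_eq_top]; exact Subgroup.mem_top v), h.hZcard]
  have heq : Z ⊔ Subgroup.zpowers v = W :=
    Subgroup.eq_of_le_of_card_ge (sup_le h.hZW (by rw [Subgroup.zpowers_le]; exact hv))
      (by rw [hcard, h.hWcard, pow_two])
  intro w hw
  rw [← heq] at hw
  exact mem_zpowers_sup Z v w hw

theorem th_ne_one (h : Data p P Z W E x) (v : P) (hv : v ∈ W) (hvZ : v ∉ Z) : th x v ≠ 1 := by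
  intro h1
  obtain ⟨w, hw, hne⟩ := h.hxC
  obtain ⟨n, z, hz, rfl⟩ := h.W_dec v hv hvZ w hw
  apply hne
  rw [← th_eq_one_iff, h.th_mul _ _ (pow_mem (h.W_le_C hv) n), h.th_pow v (h.W_le_C hv), h1,
    one_pow, one_mul, h.th_Z z hz]

theorem W_inf_Q (h : Data p P Z W E x) (w : P) (hw : w ∈ W)
    (hq : w ∈ Subgroup.centralizer (E : Set P)) : w ∈ Z := by
  by_contra hwZ
  apply h.th_ne_one w hw hwZ
  rw [th_eq_one_iff]
  exact Subgroup.mem_centralizer_iff.mp hq x h.hx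

theorem Z_le_Q (h : Data p P Z W E x) : Z ≤ Subgroup.centralizer (E : Set P) :=
  fun z hz => Subgroup.mem_centralizer_iff.mpr (fun e _ => h.Zcomm z hz e)

theorem Q_le_C (h : Data p P Z W E x) :
    Subgroup.centralizer (E : Set P) ≤ Subgroup.centralizer (W : Set P) :=
  Subgroup.centralizer_le (SetLike.coe_subset_coe.mpr h.hWE)

theorem E_inf_Q (h : Data p P Z W E x) (e : P) (he : e ∈ E)
    (hq : e ∈ Subgroup.centralizer (E : Set P)) : e ∈ Z :=
  h.W_inf_Q e (h.E_inf_C e he (h.Q_le_C hq)) hq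

theorem conj_pow_W (h : Data p P Z W E x) (w : P) (hw : w ∈ W) (n : ℕ) :
    x ^ n * w * (x ^ n)⁻¹ * w⁻¹ = th x w ^ n := by
  induction n with
  | zero => simp
  | succ n ih =>
    have hz : th x w ^ n ∈ Z := pow_mem (h.th_mem_Z w hw) n
    have hc := h.Zcomm _ hz x
    calc x ^ (n + 1) * w * (x ^ (n + 1))⁻¹ * w⁻¹
        = x * (x ^ n * w * (x ^ n)⁻¹ * w⁻¹) * (w * x⁻¹ * w⁻¹) := by rw [pow_succ']; group
      _ = x * th x w ^ n * (w * x⁻¹ * w⁻¹) := by rw [ih]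
      _ = th x w ^ n * x * (w * x⁻¹ * w⁻¹) := by rw [hc]
      _ = th x w ^ n * th x w := by unfold th; group
      _ = th x w ^ (n + 1) := (pow_succ _ _).symm

theorem conj_pow_C (h : Data p P Z W E x) (c : P) (n : ℕ) :
    ∃ z ∈ Z, x ^ n * c * (x ^ n)⁻¹ * c⁻¹ = th x c ^ n * z := by
  induction n with
  | zero => exact ⟨1, Z.one_mem, by simp⟩
  | succ n ih =>
    obtain ⟨z, hz, hn⟩ := ih
    have hu : th x c ^ n * z ∈ W := mul_mem (pow_mem (h.th_mem_W c) n) (h.hZW hz)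
    have hz' := h.hWZ _ hu x
    obtain ⟨ζ, hζ⟩ : ∃ ζ : P, ζ = x * (th x c ^ n * z) * x⁻¹ * (th x c ^ n * z)⁻¹ := ⟨_, rfl⟩
    rw [← hζ] at hz'
    refine ⟨ζ * z, mul_mem hz' hz, ?_⟩
    have hzc : ∀ g, g * z = z * g := h.Zcomm z hz
    have e1 : ζ * th x c ^ n = th x c ^ n * ζ := (h.Zcomm ζ hz' _).symm
    have e2 : ζ * th x c = th x c * ζ := (h.Zcomm ζ hz' _).symm
    calc x ^ (n + 1) * c * (x ^ (n + 1))⁻¹ * c⁻¹
        = x * (x ^ n * c * (x ^ n)⁻¹ * c⁻¹) * x⁻¹ * (x * c * x⁻¹ * c⁻¹) := by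
          rw [pow_succ']; group
      _ = x * (th x c ^ n * z) * x⁻¹ * th x c := by rw [hn]; rfl
      _ = (x * (th x c ^ n * z) * x⁻¹ * (th x c ^ n * z)⁻¹) * (th x c ^ n * z) * th x c := by
          group
      _ = ζ * th x c ^ n * (z * th x c) := by rw [← hζ]; group
      _ = ζ * th x c ^ n * (th x c * z) := by rw [← hzc]
      _ = th x c ^ n * ζ * (th x c * z) := by rw [e1]
      _ = th x c ^ n * (ζ * th x c) * z := by group
      _ = th x c ^ n * (th x c * ζ) * z := by rw [e2]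
      _ = th x c ^ (n + 1) * (ζ * z) := by rw [pow_succ]; group

theorem exists_v (h : Data p P Z W E x) : ∃ v ∈ W, v ∉ Z := by
  have hpp : p.Prime := Fact.out
  by_contra hcon
  push Not at hcon
  have h1 := Subgroup.card_le_of_le (show W ≤ Z from hcon)
  rw [h.hWcard, h.hZcard] at h1
  have h2 : p ^ 2 ≤ p ^ 1 := by simpa using h1
  have := (Nat.pow_le_pow_iff_right hpp.one_lt).mp h2
  omega

theorem P_dec (h : Data p P Z W E x) (g : P) :
    ∃ n : ℕ, ∃ c ∈ Subgroup.centralizer (W : Set P), g = x ^ n * c := by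
  obtain ⟨v, hv, hvZ⟩ := h.exists_v
  have hne := h.th_ne_one v hv hvZ
  have hκ : g * v * g⁻¹ * v⁻¹ ∈ Z := h.hWZ v hv g
  obtain ⟨n, hn⟩ := h.Z_eq_zpowers _ (h.th_mem_Z v hv) hne _ hκ
  rw [← h.conj_pow_W v hv n] at hn
  have h2 : g * v = x ^ n * v * (x ^ n)⁻¹ * g := by
    have h3 : g * v = (g * v * g⁻¹ * v⁻¹) * v * g := by group
    rw [h3, hn]; group
  refine ⟨n, (x ^ n)⁻¹ * g, ?_, by group⟩
  rw [Subgroup.mem_centralizer_iff]
  intro w hw
  obtain ⟨m, z, hz, rfl⟩ := h.W_dec v hv hvZ w hw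
  have hcv : Commute v ((x ^ n)⁻¹ * g) := by
    show v * ((x ^ n)⁻¹ * g) = (x ^ n)⁻¹ * g * v
    calc v * ((x ^ n)⁻¹ * g) = (x ^ n)⁻¹ * (x ^ n * v * (x ^ n)⁻¹ * g) := by group
      _ = (x ^ n)⁻¹ * (g * v) := by rw [h2]
      _ = _ := by group
  have hcz : Commute z ((x ^ n)⁻¹ * g) := (h.Zcomm z hz _).symm
  exact ((hcv.pow_left m).mul_left hcz).eq

theorem th_mem_Z_iff (h : Data p P Z W E x) (c : P)
    (hc : c ∈ Subgroup.centralizer (W : Set P)) :
    th x c ∈ Z ↔ ∃ w ∈ W, ∃ q ∈ Subgroup.centralizer (E : Set P), c = w * q := by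
  constructor
  · intro hz
    obtain ⟨w, hw, hwz⟩ := h.exists_th_eq _ hz
    refine ⟨w, hw, w⁻¹ * c, ?_, by group⟩
    apply h.mem_Q_of _ (mul_mem (inv_mem (h.W_le_C hw)) hc)
    rw [h.th_mul _ _ (inv_mem (h.W_le_C hw)), h.th_inv w (h.W_le_C hw), hwz, inv_mul_cancel]
  · rintro ⟨w, hw, q, hq, rfl⟩
    rw [h.th_mul _ _ (h.W_le_C hw),
      (th_eq_one_iff x q).mpr (Subgroup.mem_centralizer_iff.mp hq x h.hx), mul_one]
    exact h.th_mem_Z w hw

theorem good (h : Data p P Z W E x)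
    (hgood : ∀ c ∈ Subgroup.centralizer (W : Set P), th x c ∈ Z) :
    E ⊔ Subgroup.centralizer (E : Set P) = ⊤ := by
  rw [eq_top_iff]
  intro g _
  obtain ⟨n, c, hc, rfl⟩ := h.P_dec g
  obtain ⟨w, hw, q, hq, rfl⟩ := (h.th_mem_Z_iff c hc).mp (hgood c hc)
  have h1 : x ^ n * w ∈ E := mul_mem (pow_mem h.hx n) (h.hWE hw)
  have h2 : x ^ n * (w * q) = (x ^ n * w) * q := by group
  rw [h2]
  exact Subgroup.mul_mem_sup h1 hq

theorem isCyclic_Q (h : Data p P Z W E x) (hp2 : p ≠ 2) (hP : IsPGroup p P) :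
    IsCyclic ↥(Subgroup.centralizer (E : Set P)) := by
  have hpp : p.Prime := Fact.out
  by_contra hnc
  have hPQ : IsPGroup p ↥(Subgroup.centralizer (E : Set P)) := hP.to_subgroup _
  have hnc' : ¬ IsCyclic ↥(⊤ : Subgroup ↥(Subgroup.centralizer (E : Set P))) := by
    intro hc
    exact hnc (isCyclic_of_surjective
      (Subgroup.topEquiv : (⊤ : Subgroup ↥(Subgroup.centralizer (E : Set P))) ≃* _)
      Subgroup.topEquiv.surjective)
  obtain ⟨A, -, -, hAe, hAcard⟩ := Cfsg.Agent.S0636.result hp2 hPQ ⊤ hnc'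
  have hle : A.map (Subgroup.subtype _) ≤ Z := by
    rintro _ ⟨a, ha, rfl⟩
    have h1 : (a : P) ^ p = 1 := by
      have := congrArg Subtype.val (hAe.2 a ha)
      simpa using this
    exact h.E_inf_Q _ ((h.hE _).mp h1) a.2
  have h2 := Subgroup.card_le_of_le hle
  rw [Subgroup.card_map_of_injective (Subgroup.subtype_injective _), hAcard, h.hZcard] at h2
  have h3 : p ^ 2 ≤ p ^ 1 := by simpa using h2
  have := (Nat.pow_le_pow_iff_right hpp.one_lt).mp h3
  omega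

theorem not_comm (h : Data p P Z W E x) : ¬ (∀ a ∈ E, ∀ b ∈ E, a * b = b * a) := by
  intro hc
  obtain ⟨w, hw, hne⟩ := h.hxC
  exact hne (hc x h.hx w (h.hWE hw))

theorem commutator_E (h : Data p P Z W E x) : ⁅E, E⁆ = Z := by
  haveI : Z.Normal := h.Znormal
  apply le_antisymm
  · rw [Subgroup.commutator_le]
    intro a ha b hb
    obtain ⟨m, w', hw', rfl⟩ := h.hEdec b hb
    obtain ⟨n, w, hw, rfl⟩ := h.hEdec a ha
    have e1 : ⁅x ^ n * w, x ^ m * w'⁆
        = (x ^ n * (x ^ m * w * (x ^ m)⁻¹ * w⁻¹)⁻¹ * (x ^ n)⁻¹)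
          * (x ^ m * ((x ^ n * w) * w' * (x ^ n * w)⁻¹ * w'⁻¹) * (x ^ m)⁻¹) := by
      rw [commutatorElement_def]; group
    rw [e1]
    apply mul_mem
    · apply Subgroup.Normal.conj_mem inferInstance
      apply inv_mem
      rw [h.conj_pow_W w hw m]
      exact pow_mem (h.th_mem_Z w hw) m
    · apply Subgroup.Normal.conj_mem inferInstance
      exact h.hWZ w' hw' _
  · intro z hz
    obtain ⟨w0, hw0, hne⟩ := h.exists_w0
    obtain ⟨n, rfl⟩ := h.Z_eq_zpowers _ (h.th_mem_Z w0 hw0) hne z hz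
    apply pow_mem
    have : th x w0 = ⁅x, w0⁆ := by rw [commutatorElement_def]; rfl
    rw [this]
    exact Subgroup.commutator_mem_commutator h.hx (h.hWE hw0)

end Data

end Cfsg.Agent.Lib.Helper11.R2C
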