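import Mathlib
import Cfsg.Agent.Lib.Helper11.R2C4

/-!
# Rank-two `p`-groups, `p > 3`: the bad configuration is killed by odd-order automorphisms
(for S1448)
-/

set_option autoImplicit false
set_option linter.unusedSectionVars false
open Cfsg
open scoped commutatorElement

namespace Cfsg.Agent.Lib.Helper11.R2C

universe u

namespace Data

variable {p : ℕ} [hpF : Fact p.Prime] {P : Type u} [Group P] [Finite P] {Z W E : Subgroup P}
  {x : P}

theorem aut_E (h : Data p P Z W E x) (τ : MulAut P) (e : P) (he : e ∈ E) : τ e ∈ E := by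
  rw [← h.hE, ← map_pow, (h.hE e).mpr he, map_one]

theorem aut_Q (h : Data p P Z W E x) (τ : MulAut P) (q : P)
    (hq : q ∈ Subgroup.centralizer (E : Set P)) : τ q ∈ Subgroup.centralizer (E : Set P) := by
  rw [Subgroup.mem_centralizer_iff]
  intro e he
  have h1 : τ⁻¹ e ∈ E := h.aut_E τ⁻¹ e he
  have h2 := Subgroup.mem_centralizer_iff.mp hq _ h1
  have h3 := congrArg τ h2
  rw [map_mul, map_mul, MulAut.apply_inv_self] at h3
  exact h3

theorem aut_W (h : Data p P Z W E x) (r : P) (hrZ : th x r ∉ Z) (τ : MulAut P) (w : P)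
    (hw : w ∈ W) : τ w ∈ W := by
  have hvW : th x r ∈ W := h.th_mem_W r
  have key : ∀ c : P, τ (th x c) ∈ W := by
    intro c
    have h1 : τ (th x c) = τ x * τ c * (τ x)⁻¹ * (τ c)⁻¹ := by
      unfold th
      rw [map_mul, map_mul, map_mul, map_inv, map_inv]
    rw [h1]
    exact h.comm_mem_W _ (h.aut_E τ x h.hx) _
  obtain ⟨n, z, hz, rfl⟩ := h.W_dec _ hvW hrZ w hw
  obtain ⟨w', -, hw'z⟩ := h.exists_th_eq z hz
  rw [map_mul, map_pow, ← hw'z]
  exact mul_mem (pow_mem (key r) n) (key w')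

theorem aut_C (h : Data p P Z W E x) (r : P) (hrZ : th x r ∉ Z) (τ : MulAut P) (c : P)
    (hc : c ∈ Subgroup.centralizer (W : Set P)) : τ c ∈ Subgroup.centralizer (W : Set P) := by
  rw [Subgroup.mem_centralizer_iff]
  intro w hw
  have h1 : τ⁻¹ w ∈ W := h.aut_W r hrZ τ⁻¹ w hw
  have h2 := Subgroup.mem_centralizer_iff.mp hc _ h1
  have h3 := congrArg τ h2
  rw [map_mul, map_mul, MulAut.apply_inv_self] at h3
  exact h3

set_option maxHeartbeats 1600000 in
theorem bad (h : Data p P Z W E x) (hp2 : p ≠ 2) (hP : IsPGroup p P) (r : P)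
    (hrC : r ∈ Subgroup.centralizer (W : Set P)) (hrZ : th x r ∉ Z)
    (hQc : Subgroup.centralizer (E : Set P) ≤ Subgroup.center P)
    (σ : MulAut P) (hodd : Odd (orderOf σ)) :
    ∀ g : P, σ g * g⁻¹ ∈ Subgroup.centralizer (W : Set P) := by
  have hpp : p.Prime := Fact.out
  obtain ⟨v, hv⟩ : ∃ v, v = th x r := ⟨_, rfl⟩
  have hvZ : v ∉ Z := hv ▸ hrZ
  have hvW : v ∈ W := hv ▸ h.th_mem_W r
  have hvC : v ∈ Subgroup.centralizer (W : Set P) := h.W_le_C hvW
  have hvp : v ^ p = 1 := h.Wexp v hvW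
  obtain ⟨i, w1, hw1, hσx⟩ := h.hEdec (σ x) (h.aut_E σ x h.hx)
  -- the two equivariance formulas
  have hB7 : ∀ c ∈ Subgroup.centralizer (W : Set P), ∃ z ∈ Z, σ (th x c) = th x (σ c) ^ i * z := by
    intro c hc
    have hσc := h.aut_C r hrZ σ c hc
    obtain ⟨z, hz, hzeq⟩ := h.conj_pow_C (σ c) i
    refine ⟨z, hz, ?_⟩
    rw [← hzeq]
    have hcomm : w1 * σ c = σ c * w1 := Subgroup.mem_centralizer_iff.mp hσc w1 hw1
    unfold th
    rw [map_mul, map_mul, map_mul, map_inv, map_inv, hσx]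
    calc x ^ i * w1 * σ c * (x ^ i * w1)⁻¹ * (σ c)⁻¹
        = x ^ i * (w1 * σ c) * w1⁻¹ * (x ^ i)⁻¹ * (σ c)⁻¹ := by group
      _ = x ^ i * (σ c * w1) * w1⁻¹ * (x ^ i)⁻¹ * (σ c)⁻¹ := by rw [hcomm]
      _ = _ := by group
  have hB7W : ∀ w ∈ W, σ (th x w) = th x (σ w) ^ i := by
    intro w hw
    have hσw := h.aut_W r hrZ σ w hw
    rw [← h.conj_pow_W (σ w) hσw i]
    have hcomm : w1 * σ w = σ w * w1 := h.hWab _ hw1 _ hσw
    unfold th
    rw [map_mul, map_mul, map_mul, map_inv, map_inv, hσx]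
    calc x ^ i * w1 * σ w * (x ^ i * w1)⁻¹ * (σ w)⁻¹
        = x ^ i * (w1 * σ w) * w1⁻¹ * (x ^ i)⁻¹ * (σ w)⁻¹ := by group
      _ = x ^ i * (σ w * w1) * w1⁻¹ * (x ^ i)⁻¹ * (σ w)⁻¹ := by rw [hcomm]
      _ = _ := by group
  have hσr := h.aut_C r hrZ σ r hrC
  obtain ⟨j, z0, hz0, hj⟩ := h.W_dec v hvW hvZ (th x (σ r)) (h.th_mem_W _)
  obtain ⟨z, hz, hσv⟩ := hB7 r hrC
  rw [← hv, hj] at hσv
  have hσv' : σ v = v ^ (j * i) * (z0 ^ i * z) := by
    rw [hσv]
    have hc : Commute (v ^ j) z0 := h.Zcomm z0 hz0 _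
    rw [hc.mul_pow, ← pow_mul]; group
  have hz2 : z0 ^ i * z ∈ Z := mul_mem (pow_mem hz0 i) hz
  have hz'Z : th x v ∈ Z := h.th_mem_Z v hvW
  have hz'ne : th x v ≠ 1 := h.th_ne_one v hvW hvZ
  have hz'p : th x v ^ p = 1 := h.Wexp _ (h.hZW hz'Z)
  have hσz' : σ (th x v) = th x v ^ (j * i * i) := by
    rw [hB7W v hvW, hσv', h.th_mul _ _ (pow_mem hvC _), h.th_pow v hvC, h.th_Z _ hz2, mul_one,
      ← pow_mul]
  -- the power part
  have hrpQ : r ^ p ∈ Subgroup.centralizer (E : Set P) := by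
    apply h.mem_Q_of _ (pow_mem hrC p)
    rw [h.th_pow r hrC, ← hv, hvp]
  haveI hcyc := h.isCyclic_Q hp2 hP
  obtain ⟨⟨g, hgQ⟩, hgen⟩ := exists_zpow_surjective ↥(Subgroup.centralizer (E : Set P))
  have hgen' : ∀ q ∈ Subgroup.centralizer (E : Set P), ∃ k : ℤ, q = g ^ k := by
    intro q hq
    obtain ⟨k, hk⟩ := hgen ⟨q, hq⟩
    refine ⟨k, ?_⟩
    have := congrArg Subtype.val hk
    simpa using this.symm
  obtain ⟨J, hJ⟩ := hgen' (σ g) (h.aut_Q σ g hgQ)
  obtain ⟨s, hs⟩ := hgen' (r ^ p) hrpQ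
  obtain ⟨w2, hw2, hw2z⟩ := h.exists_th_eq z0 hz0
  have hrjw : r ^ j * w2 ∈ Subgroup.centralizer (W : Set P) :=
    mul_mem (pow_mem hrC j) (h.W_le_C hw2)
  obtain ⟨q0, hq0def⟩ : ∃ q0, q0 = (r ^ j * w2)⁻¹ * σ r := ⟨_, rfl⟩
  have hq0 : q0 ∈ Subgroup.centralizer (E : Set P) := by
    rw [hq0def]
    apply h.mem_Q_of _ (mul_mem (inv_mem hrjw) hσr)
    rw [h.th_mul _ _ (inv_mem hrjw), h.th_inv _ hrjw, h.th_mul _ _ (pow_mem hrC j),
      h.th_pow r hrC, hw2z, hj, ← hv]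
    exact inv_mul_cancel _
  have hσr_eq : σ r = r ^ j * w2 * q0 := by rw [hq0def]; group
  obtain ⟨e, he⟩ := hgen' q0 hq0
  have hq0c : ∀ t : P, t * q0 = q0 * t := fun t => Subgroup.mem_center_iff.mp (hQc hq0) t
  have hpow : σ (r ^ p) = (r ^ p) ^ j * q0 ^ p := by
    rw [map_pow, hσr_eq]
    have hc1 : Commute (r ^ j * w2) q0 := hq0c _
    have hc2 : Commute (r ^ j) w2 :=
      (show Commute r w2 from (Subgroup.mem_centralizer_iff.mp hrC w2 hw2).symm).pow_left j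
    rw [hc1.mul_pow, hc2.mul_pow, h.Wexp w2 hw2, mul_one, ← pow_mul, mul_comm j p, pow_mul]
  have hzp : g ^ (J * s - (s * j + e * p)) = 1 := by
    have h1 : σ (r ^ p) = g ^ (J * s) := by rw [hs, map_zpow, hJ, ← zpow_mul]
    have h2 : (r ^ p) ^ j * q0 ^ p = g ^ (s * j + e * p) := by
      rw [hs, he, ← zpow_natCast, ← zpow_mul, ← zpow_natCast (g ^ e), ← zpow_mul, ← zpow_add]
    rw [zpow_sub, ← h1, hpow, h2, mul_inv_cancel]
  have hord : orderOf (th x v) = p := orderOf_eq_prime hz'p hz'ne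
  obtain ⟨f, hf⟩ := hgen' (th x v) (h.Z_le_Q hz'Z)
  have hpdvd : p ∣ orderOf g := by
    rw [← hord]
    apply orderOf_dvd_of_mem_zpowers
    rw [hf]
    exact Subgroup.zpow_mem_zpowers g f
  have hdvd : (p : ℤ) ∣ J * s - (s * j + e * p) :=
    (Int.natCast_dvd_natCast.mpr hpdvd).trans (orderOf_dvd_iff_zpow_eq_one.mpr hzp)
  have hdvd2 : (p : ℤ) ∣ s * (J - j) := by
    have e1 : s * (J - j) = (J * s - (s * j + e * p)) + e * p := by ring
    rw [e1]
    exact dvd_add hdvd (dvd_mul_left _ _)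
  have hps : ¬ (p : ℤ) ∣ s := by
    rintro ⟨s', hs'⟩
    have hq1 : g ^ s' ∈ Subgroup.centralizer (E : Set P) := zpow_mem hgQ s'
    have hq1c : ∀ t : P, t * g ^ s' = g ^ s' * t :=
      fun t => Subgroup.mem_center_iff.mp (hQc hq1) t
    have h1 : (r * (g ^ s')⁻¹) ^ p = 1 := by
      have hc : Commute r (g ^ s')⁻¹ := (show Commute r (g ^ s') from hq1c r).inv_right
      rw [hc.mul_pow, hs, hs', inv_pow, ← zpow_natCast (g ^ s'), ← zpow_mul, mul_comm s' (p : ℤ),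
        mul_inv_cancel]
    have h2 : r * (g ^ s')⁻¹ ∈ W :=
      h.E_inf_C _ ((h.hE _).mp h1) (mul_mem hrC (inv_mem (h.Q_le_C hq1)))
    have h3 := h.th_mem_Z _ h2
    rw [h.th_mul _ _ hrC,
      (th_eq_one_iff x _).mpr (Subgroup.mem_centralizer_iff.mp (inv_mem hq1) x h.hx), mul_one]
      at h3
    exact hrZ h3
  have hpJ : (p : ℤ) ∣ J - j :=
    ((Nat.prime_iff_prime_int.mp hpp).dvd_or_dvd hdvd2).resolve_left hps
  have hσz'2 : σ (th x v) = th x v ^ j := by
    obtain ⟨t, ht⟩ := hpJ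
    have hJeq : J = j + p * t := by linarith
    calc σ (th x v) = (σ g) ^ f := by rw [hf, map_zpow]
      _ = (g ^ f) ^ J := by rw [hJ, ← zpow_mul, ← zpow_mul, mul_comm]
      _ = th x v ^ J := by rw [← hf]
      _ = th x v ^ ((j : ℤ) + p * t) := by rw [hJeq]
      _ = th x v ^ j := by
        rw [zpow_add, zpow_mul, zpow_natCast, zpow_natCast, hz'p, one_zpow, mul_one]
  have hmod : j * i * i ≡ j [MOD p] := by
    rw [← hord, ← pow_eq_pow_iff_modEq, ← hσz', hσz'2]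
  have hpj : ¬ p ∣ j := by
    rintro ⟨j', rfl⟩
    have h1 : th x (σ r) ∈ Z := by
      rw [hj, pow_mul, hvp, one_pow, one_mul]; exact hz0
    obtain ⟨w, hw, q, hq, hwq⟩ := (h.th_mem_Z_iff _ hσr).mp h1
    have h2 : r = σ⁻¹ w * σ⁻¹ q := by
      rw [← map_mul, ← hwq]; exact (MulAut.inv_apply_self _ σ r).symm
    apply hrZ
    have hw' := h.aut_W r hrZ σ⁻¹ w hw
    have hq' := h.aut_Q σ⁻¹ q hq
    have h3 : th x r = th x (σ⁻¹ w * σ⁻¹ q) := by rw [← h2]
    rw [h3, h.th_mul _ _ (h.W_le_C hw'),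
      (th_eq_one_iff x _).mpr (Subgroup.mem_centralizer_iff.mp hq' x h.hx), mul_one]
    exact h.th_mem_Z _ hw'
  have hii : i * i ≡ 1 [MOD p] := by
    have hcop : Nat.gcd p j = 1 := (Nat.Prime.coprime_iff_not_dvd hpp).mpr hpj
    apply Nat.ModEq.cancel_left_of_coprime hcop
    rw [← mul_assoc, mul_one]; exact hmod
  have hi : ((i : ZMod p) = 1) ∨ ((i : ZMod p) = -1) := by
    have h1 : ((i * i : ℕ) : ZMod p) = ((1 : ℕ) : ZMod p) :=
      (ZMod.natCast_eq_natCast_iff _ _ _).mpr hii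
    push_cast at h1
    exact mul_self_eq_one_iff.mp h1
  rcases hi with hi1 | hi1
  · -- σ x ∈ x W
    have hxi : x ^ i = x := by
      have h0 : i ≡ 1 [MOD p] := (ZMod.natCast_eq_natCast_iff i 1 p).mp (by simpa using hi1)
      have h1 : x ^ i = x ^ 1 := by rw [pow_eq_pow_iff_modEq, h.orderOf_x]; exact h0
      rwa [pow_one] at h1
    rw [hxi] at hσx
    intro g
    obtain ⟨n, c, hc, rfl⟩ := h.P_dec g
    have hpw : ∀ n : ℕ, ∃ w ∈ W, (x * w1) ^ n = x ^ n * w := by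
      intro n
      induction n with
      | zero => exact ⟨1, W.one_mem, by simp⟩
      | succ n ih =>
        obtain ⟨w, hw, hn⟩ := ih
        refine ⟨x⁻¹ * w * x * w1, mul_mem ?_ hw1, ?_⟩
        · have := h.hWn.conj_mem w hw x⁻¹
          simpa using this
        · rw [pow_succ, hn, pow_succ]; group
    obtain ⟨w, hw, hn⟩ := hpw n
    haveI := h.hWn
    have hCn : (Subgroup.centralizer (W : Set P)).Normal := Subgroup.normal_centralizer
    rw [map_mul, map_pow, hσx, hn]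
    have e1 : x ^ n * w * σ c * (x ^ n * c)⁻¹ = x ^ n * (w * σ c * c⁻¹) * (x ^ n)⁻¹ := by group
    rw [e1]
    apply hCn.conj_mem
    exact mul_mem (mul_mem (h.W_le_C hw) (h.aut_C r hrZ σ c hc)) (inv_mem hc)
  · exfalso
    have hxi : x ^ i = x⁻¹ := by
      have h1 : ((i + 1 : ℕ) : ZMod p) = 0 := by push_cast; rw [hi1]; ring
      have h2 : p ∣ i + 1 := (ZMod.natCast_eq_zero_iff _ _).mp h1
      obtain ⟨m, hm⟩ := h2
      have h3 : x ^ (i + 1) = 1 := by rw [hm, pow_mul, h.xp, one_pow]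
      rw [pow_succ] at h3
      exact eq_inv_of_mul_eq_one_left h3
    rw [hxi] at hσx
    have hind : ∀ k : ℕ, (Even k → ∃ w ∈ W, (σ ^ k) x = x * w) ∧
        (Odd k → ∃ w ∈ W, (σ ^ k) x = x⁻¹ * w) := by
      intro k
      induction k with
      | zero => exact ⟨fun _ => ⟨1, W.one_mem, by simp⟩, fun ho => absurd ho (by decide)⟩
      | succ k ih =>
        constructor
        · intro hev
          have hok : Odd k := by
            rcases Nat.even_or_odd k with hk | hk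
            · exact absurd hev (by rw [Nat.even_add_one]; exact fun hh => hh hk)
            · exact hk
          obtain ⟨w, hw, hk⟩ := ih.2 hok
          refine ⟨x⁻¹ * w1⁻¹ * x * σ w, mul_mem ?_ (h.aut_W r hrZ σ w hw), ?_⟩
          · have := h.hWn.conj_mem w1⁻¹ (inv_mem hw1) x⁻¹
            simpa using this
          · rw [pow_succ', MulAut.mul_apply, hk, map_mul, map_inv, hσx]; group
        · intro hod
          have hek : Even k := by
            rcases Nat.even_or_odd k with hk | hk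
            · exact hk
            · exact absurd hod (by rw [Nat.odd_add_one]; exact fun hh => hh hk)
          obtain ⟨w, hw, hk⟩ := ih.1 hek
          refine ⟨w1 * σ w, mul_mem hw1 (h.aut_W r hrZ σ w hw), ?_⟩
          rw [pow_succ', MulAut.mul_apply, hk, map_mul, hσx]; group
    obtain ⟨w, hw, hk⟩ := (hind (orderOf σ)).2 hodd
    rw [pow_orderOf_eq_one, MulAut.one_apply] at hk
    have hxx : x * x ∈ W := by
      have e1 : x * x = w := by
        have e2 : x * x = x * (x⁻¹ * w) := by rw [← hk]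
        rw [e2]; group
      rw [e1]; exact hw
    have hodd_p : Odd p := hpp.eq_two_or_odd'.resolve_left hp2
    obtain ⟨t, ht⟩ := hodd_p
    have e3 : x = (x * x) ^ (t + 1) := by
      rw [← pow_two, ← pow_mul]
      have e4 : 2 * (t + 1) = p + 1 := by omega
      rw [e4, pow_succ, h.xp, one_mul]
    exact h.hxW (e3 ▸ pow_mem hxx _)

end Data

end Cfsg.Agent.Lib.Helper11.R2C
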