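import Mathlib
import Cfsg.Prelude.Def_Transfer
import Cfsg.Agent.Lib.Helper34.ConjAux
import Cfsg.Agent.Lib.Helper47.Comm
import Cfsg.Agent.Lib.Helper31.Faithful

/-!
Two subnormal subgroups `A`, `B` of a group `E` acting faithfully on an elementary abelian
`p`-group `V`, each with trivial `O_p` and irreducible on its commutator module: if the
commutator modules are incomparable then `A` centralizes `[V, B]` and `B` centralizes `[V, A]`
(helper11; used for S0615).
-/

set_option autoImplicit false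

namespace Cfsg.Agent.Lib.Helper11.SubnPair

open Cfsg
open scoped commutatorElement
open Cfsg.Agent.Lib.Helper34 Cfsg.Agent.Lib.Helper47 Cfsg.Agent.Lib.Helper31

variable {G : Type*} [Group G]

/-- Conjugate of a subgroup. -/
abbrev cj (A : Subgroup G) (y : G) : Subgroup G := A.map (MulAut.conj y).toMonoidHom

theorem comm_of_mem {p : ℕ} {V : Subgroup G} (hV : IsElementaryAbelian p V) {x y : G}
    (hx : x ∈ V) (hy : y ∈ V) : x * y = y * x :=
  congrArg Subtype.val (hV.1.is_comm.comm ⟨x, hx⟩ ⟨y, hy⟩)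

theorem le_normalizer_of_conj {A P : Subgroup G} (h : ∀ a ∈ A, ∀ x ∈ P, a * x * a⁻¹ ∈ P) :
    A ≤ Subgroup.normalizer (P : Set G) := by
  intro a ha
  apply mem_normalizer_of_conj_mem
  · exact h a ha
  · intro x hx
    have := h a⁻¹ (A.inv_mem ha) x hx
    simpa using this

theorem conj_mem_of_le_normalizer {A P : Subgroup G} (h : A ≤ Subgroup.normalizer (P : Set G))
    {a x : G} (ha : a ∈ A) (hx : x ∈ P) : a * x * a⁻¹ ∈ P :=
  conj_mem_of_mem_normalizer (h ha) hx

theorem conj_mem_of_le_normalizer' {A P : Subgroup G} (h : A ≤ Subgroup.normalizer (P : Set G))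
    {a x : G} (ha : a ∈ A) (hx : x ∈ P) : a⁻¹ * x * a ∈ P :=
  conj_mem_of_mem_normalizer' (h ha) hx

/-- An element of a faithful group stabilising the chain `1 ≤ W ≤ V` has `p`-th power `1`. -/
theorem pow_p_eq_one_of_stab {p : ℕ} {V E : Subgroup G} (hV : IsElementaryAbelian p V)
    (hf : E ⊓ Subgroup.centralizer (V : Set G) = ⊥) {a : G} (ha : a ∈ E)
    (hc : ∀ v ∈ V, a * v * a⁻¹ * v⁻¹ ∈ V ∧
      a * (a * v * a⁻¹ * v⁻¹) = (a * v * a⁻¹ * v⁻¹) * a) : a ^ p = 1 := by
  have key : ∀ k : ℕ, ∀ v ∈ V, a ^ k * v * (a ^ k)⁻¹ = (a * v * a⁻¹ * v⁻¹) ^ k * v := by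
    intro k
    induction k with
    | zero => intro v _; simp
    | succ k ih =>
      intro v hv
      obtain ⟨-, h2⟩ := hc v hv
      obtain ⟨c, hcdef⟩ : ∃ c, c = a * v * a⁻¹ * v⁻¹ := ⟨_, rfl⟩
      rw [← hcdef] at h2 ⊢
      have h3 : a * c ^ k * a⁻¹ = c ^ k := by
        have : a * c ^ k = c ^ k * a := by
          have hcm : Commute a c := h2
          exact (hcm.pow_right k).eq
        rw [this]; group
      have h4 : a * v * a⁻¹ = c * v := by rw [hcdef]; group
      have ih' := ih v hv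
      rw [← hcdef] at ih'
      calc a ^ (k + 1) * v * (a ^ (k + 1))⁻¹ = a * (a ^ k * v * (a ^ k)⁻¹) * a⁻¹ := by
            rw [pow_succ']; group
        _ = a * (c ^ k * v) * a⁻¹ := by rw [ih']
        _ = (a * c ^ k * a⁻¹) * (a * v * a⁻¹) := by group
        _ = c ^ k * (c * v) := by rw [h3, h4]
        _ = c ^ (k + 1) * v := by rw [pow_succ]; group
  have hmem : a ^ p ∈ E ⊓ Subgroup.centralizer (V : Set G) := by
    refine Subgroup.mem_inf.mpr ⟨E.pow_mem ha p, ?_⟩
    rw [Subgroup.mem_centralizer_iff]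
    intro v hv
    have h1 := key p v hv
    rw [hV.2 _ (hc v hv).1, one_mul] at h1
    calc v * a ^ p = (a ^ p * v * (a ^ p)⁻¹) * a ^ p := by rw [h1]
      _ = a ^ p * v := by group
  rw [hf] at hmem
  exact (Subgroup.mem_bot).mp hmem

/-- The standing hypotheses on one of the two subgroups. -/
structure Good (p : ℕ) (V E A : Subgroup G) : Prop where
  le : A ≤ E
  sn : (A.subgroupOf E).IsSubnormal
  op : ∀ P : Subgroup G, P ≤ A → A ≤ Subgroup.normalizer (P : Set G) → IsPGroup p P → P = ⊥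
  irr : ∀ U : Subgroup G, U ≤ ⁅V, A⁆ → A ≤ Subgroup.normalizer (U : Set G) →
    U = ⊥ ∨ U = ⁅V, A⁆
  card : 2 < Nat.card A

section step0

variable {p : ℕ} {V E A : Subgroup G}

theorem Good.comm_le (hEV : E ≤ Subgroup.normalizer (V : Set G)) (hA : Good p V E A) :
    ⁅V, A⁆ ≤ V :=
  commutator_le_of_le_normalizer (hA.le.trans hEV) le_rfl

theorem Good.le_norm (_hA : Good p V E A) : A ≤ Subgroup.normalizer ((⁅V, A⁆ : Subgroup G) : Set G) :=
  le_normalizer_commutator_right V A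

theorem Good.ne_bot [Finite G] (hA : Good p V E A) : A ≠ ⊥ := by
  intro h
  have := hA.card
  rw [h] at this
  simp at this

theorem Good.comm_ne_bot [Finite G] (hf : E ⊓ Subgroup.centralizer (V : Set G) = ⊥)
    (hA : Good p V E A) : ⁅V, A⁆ ≠ ⊥ := by
  intro h
  rw [Subgroup.commutator_comm, Subgroup.commutator_eq_bot_iff_le_centralizer] at h
  have : A ≤ E ⊓ Subgroup.centralizer (V : Set G) := le_inf hA.le h
  rw [hf] at this
  exact hA.ne_bot (le_bot_iff.mp this)

theorem Good.comm_comm [Finite G] (hV : IsElementaryAbelian p V)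
    (hEV : E ≤ Subgroup.normalizer (V : Set G))
    (hf : E ⊓ Subgroup.centralizer (V : Set G) = ⊥) (hA : Good p V E A) :
    ⁅⁅V, A⁆, A⁆ = ⁅V, A⁆ := by
  rcases hA.irr ⁅⁅V, A⁆, A⁆ (commutator_le_of_le_normalizer hA.le_norm le_rfl)
    (le_normalizer_commutator_right _ A) with h | h
  · exfalso
    rw [Subgroup.commutator_eq_bot_iff_le_centralizer] at h
    have hp : IsPGroup p A := by
      rintro ⟨a, ha⟩
      refine ⟨1, ?_⟩
      have : a ^ p = 1 := by
        apply pow_p_eq_one_of_stab hV hf (hA.le ha)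
        intro v hv
        have hc : a * v * a⁻¹ * v⁻¹ ∈ ⁅V, A⁆ := by
          rw [Subgroup.commutator_comm]
          exact Subgroup.commutator_mem_commutator ha hv
        refine ⟨hA.comm_le hEV hc, ?_⟩
        have := h hc
        rw [Subgroup.mem_centralizer_iff] at this
        exact this a ha
      apply Subtype.ext
      simpa using this
    exact hA.ne_bot (hA.op A le_rfl Subgroup.le_normalizer hp)
  · exact h

theorem Good.comm_inf_centralizer [Finite G] (hV : IsElementaryAbelian p V)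
    (hEV : E ≤ Subgroup.normalizer (V : Set G))
    (hf : E ⊓ Subgroup.centralizer (V : Set G) = ⊥) (hA : Good p V E A) :
    ⁅V, A⁆ ⊓ Subgroup.centralizer (A : Set G) = ⊥ := by
  have hN : A ≤ Subgroup.normalizer
      ((⁅V, A⁆ ⊓ Subgroup.centralizer (A : Set G) : Subgroup G) : Set G) := by
    apply le_normalizer_of_conj
    intro a ha x hx
    obtain ⟨hx1, hx2⟩ := Subgroup.mem_inf.mp hx
    rw [Subgroup.mem_centralizer_iff] at hx2
    have : a * x * a⁻¹ = x := by rw [hx2 a ha]; group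
    rw [this]
    exact hx
  rcases hA.irr _ inf_le_left hN with h | h
  · exact h
  · exfalso
    have h1 : ⁅V, A⁆ ≤ Subgroup.centralizer (A : Set G) := by
      rw [← h]; exact inf_le_right
    rw [← Subgroup.commutator_eq_bot_iff_le_centralizer, hA.comm_comm hV hEV hf] at h1
    exact hA.comm_ne_bot hf h1

theorem Good.inf_centralizer_comm [Finite G] (hV : IsElementaryAbelian p V)
    (hEV : E ≤ Subgroup.normalizer (V : Set G))
    (hf : E ⊓ Subgroup.centralizer (V : Set G) = ⊥) (hA : Good p V E A) :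
    A ⊓ Subgroup.centralizer ((⁅V, A⁆ : Subgroup G) : Set G) = ⊥ := by
  apply hA.op _ inf_le_left
  · apply le_normalizer_of_conj
    intro a ha x hx
    obtain ⟨hx1, hx2⟩ := Subgroup.mem_inf.mp hx
    refine Subgroup.mem_inf.mpr ⟨A.mul_mem (A.mul_mem ha hx1) (A.inv_mem ha), ?_⟩
    rw [Subgroup.mem_centralizer_iff] at hx2 ⊢
    intro w hw
    have hw' : a⁻¹ * w * a ∈ ⁅V, A⁆ := conj_mem_of_le_normalizer' hA.le_norm ha hw
    have h1 := hx2 _ hw'
    calc w * (a * x * a⁻¹) = a * ((a⁻¹ * w * a) * x) * a⁻¹ := by group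
      _ = a * (x * (a⁻¹ * w * a)) * a⁻¹ := by rw [h1]
      _ = a * x * a⁻¹ * w := by group
  · rintro ⟨x, hx⟩
    obtain ⟨hx1, hx2⟩ := Subgroup.mem_inf.mp hx
    refine ⟨1, ?_⟩
    have : x ^ p = 1 := by
      apply pow_p_eq_one_of_stab hV hf (hA.le hx1)
      intro v hv
      have hc : x * v * x⁻¹ * v⁻¹ ∈ ⁅V, A⁆ := by
        rw [Subgroup.commutator_comm]
        exact Subgroup.commutator_mem_commutator hx1 hv
      refine ⟨hA.comm_le hEV hc, ?_⟩
      rw [Subgroup.mem_centralizer_iff] at hx2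
      exact (hx2 _ hc).symm
    apply Subtype.ext
    simpa using this

end step0

section transfer

variable {p : ℕ} {V E A : Subgroup G}

theorem comm_cj (hEV : E ≤ Subgroup.normalizer (V : Set G)) {y : G} (hy : y ∈ E)
    (A : Subgroup G) : ⁅V, cj A y⁆ = cj ⁅V, A⁆ y := by
  unfold cj
  rw [Subgroup.map_commutator, map_conj_eq_self_of_mem_normalizer (hEV hy)]

theorem Good.restrict (hA : Good p V E A) {E' : Subgroup G} (hAE' : A ≤ E') (hE' : E' ≤ E) :
    Good p V E' A where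
  le := hAE'
  sn := by
    have h1 := hA.sn.comap (Subgroup.inclusion hE')
    have h2 : (A.subgroupOf E).comap (Subgroup.inclusion hE') = A.subgroupOf E' := by
      ext x
      simp [Subgroup.mem_subgroupOf]
    rw [h2] at h1
    exact h1
  op := hA.op
  irr := hA.irr
  card := hA.card

theorem Good.conj (hEV : E ≤ Subgroup.normalizer (V : Set G)) (hA : Good p V E A) {y : G}
    (hy : y ∈ E) : Good p V E (cj A y) where
  le := by
    rintro x ⟨a, ha, rfl⟩
    simp only [MulEquiv.coe_toMonoidHom, MulAut.conj_apply]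
    exact E.mul_mem (E.mul_mem hy (hA.le ha)) (E.inv_mem hy)
  sn := by
    have h1 := hA.sn.map (f := (MulAut.conj (⟨y, hy⟩ : ↥E)).toMonoidHom)
      (MulAut.conj (⟨y, hy⟩ : ↥E)).surjective
    have h2 : (A.subgroupOf E).map (MulAut.conj (⟨y, hy⟩ : ↥E)).toMonoidHom
        = (cj A y).subgroupOf E := by
      ext x
      rw [Subgroup.mem_map_equiv, Subgroup.mem_subgroupOf, Subgroup.mem_subgroupOf, mem_map_conj]
      simp [MulAut.conj_symm_apply]
    rw [h2] at h1
    exact h1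
  op := by
    intro P hP hN hp
    have h1 : cj P y⁻¹ = ⊥ := by
      apply hA.op
      · have := map_conj_mono hP y⁻¹
        rwa [map_conj_inv_map_conj] at this
      · have := map_conj_mono hN y⁻¹
        rwa [map_conj_inv_map_conj, ← normalizer_map_conj] at this
      · exact isPGroup_map_conj hp _
    have h2 : cj (cj P y⁻¹) y = P := map_conj_map_conj_inv P y
    rw [h1] at h2
    rw [← h2]
    exact Subgroup.map_bot _
  irr := by
    intro U hU hN
    rw [comm_cj hEV hy] at hU ⊢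
    have h1 : cj U y⁻¹ = ⊥ ∨ cj U y⁻¹ = ⁅V, A⁆ := by
      apply hA.irr
      · have := map_conj_mono hU y⁻¹
        rwa [map_conj_inv_map_conj] at this
      · have := map_conj_mono hN y⁻¹
        rwa [map_conj_inv_map_conj, ← normalizer_map_conj] at this
    have h2 : cj (cj U y⁻¹) y = U := map_conj_map_conj_inv U y
    rcases h1 with h1 | h1
    · left
      rw [h1] at h2
      rw [← h2]
      exact Subgroup.map_bot _
    · right
      rw [h1] at h2
      exact h2.symm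
  card := by
    have := card_map_conj A y
    unfold cj
    rw [this]
    exact hA.card

end transfer

/-- The statement proved by induction on `|E|`. -/
def PC (p : ℕ) (V E : Subgroup G) : Prop :=
  ∀ A B : Subgroup G, E = A ⊔ B → Good p V E A → Good p V E B →
    ¬ ⁅V, A⁆ ≤ ⁅V, B⁆ → ¬ ⁅V, B⁆ ≤ ⁅V, A⁆ → ⁅⁅V, A⁆, B⁆ = ⊥

theorem pair_comm [Finite G] {p : ℕ} {V E A : Subgroup G}
    (hEV : E ≤ Subgroup.normalizer (V : Set G))
    (IH : ∀ E' : Subgroup G, E' ≤ E → Nat.card E' < Nat.card E → PC p V E')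
    (hA : Good p V E A) (hne : A ≠ E) {y : G} (hy : y ∈ E)
    (hyn : y ∉ Subgroup.normalizer ((⁅V, A⁆ : Subgroup G) : Set G)) :
    ∀ a ∈ A, ∀ v ∈ ⁅V, A⁆, (y * a * y⁻¹) * v = v * (y * a * y⁻¹) ∧
      a * (y * v * y⁻¹) = (y * v * y⁻¹) * a := by
  have hB : Good p V E (cj A y) := hA.conj hEV hy
  have hE'le : A ⊔ cj A y ≤ E := sup_le hA.le hB.le
  -- the join is proper
  have hcard : Nat.card ↥(A ⊔ cj A y) < Nat.card E := by
    by_contra hcon
    push Not at hcon
    have hEq : A ⊔ cj A y = E := Subgroup.eq_of_le_of_card_ge hE'le hcon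
    have hnt : A.subgroupOf E ≠ ⊤ := by
      intro h
      rw [Subgroup.subgroupOf_eq_top] at h
      exact hne (le_antisymm hA.le h)
    obtain ⟨N, hNn, hAN, hNlt⟩ := hA.sn.exists_normal_and_le_and_lt_top_of_ne hnt
    have h1 : A ≤ N.map E.subtype := by
      intro a ha
      exact ⟨⟨a, hA.le ha⟩, hAN (Subgroup.mem_subgroupOf.mpr ha), rfl⟩
    have h2 : cj A y ≤ N.map E.subtype := by
      rintro x ⟨a, ha, rfl⟩
      refine ⟨⟨y, hy⟩ * ⟨a, hA.le ha⟩ * ⟨y, hy⟩⁻¹,
        hNn.conj_mem _ (hAN (Subgroup.mem_subgroupOf.mpr ha)) _, ?_⟩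
      simp [MulAut.conj_apply]
    have h3 : E ≤ N.map E.subtype := fun z hz => sup_le h1 h2 (hEq.symm ▸ hz)
    apply hNlt.ne
    rw [eq_top_iff]
    intro x _
    obtain ⟨z, hz, hzx⟩ := h3 x.2
    have : z = x := Subtype.ext hzx
    rw [← this]; exact hz
  have hVB : ⁅V, cj A y⁆ = cj ⁅V, A⁆ y := comm_cj hEV hy A
  have hinc1 : ¬ ⁅V, A⁆ ≤ ⁅V, cj A y⁆ := by
    intro h
    rw [hVB] at h
    have : ⁅V, A⁆ = cj ⁅V, A⁆ y :=
      Subgroup.eq_of_le_of_card_ge h (by unfold cj; rw [card_map_conj])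
    exact hyn (mem_normalizer_of_map_conj_eq_self this.symm)
  have hinc2 : ¬ ⁅V, cj A y⁆ ≤ ⁅V, A⁆ := by
    intro h
    rw [hVB] at h
    have : cj ⁅V, A⁆ y = ⁅V, A⁆ :=
      Subgroup.eq_of_le_of_card_ge h (by unfold cj; rw [card_map_conj])
    exact hyn (mem_normalizer_of_map_conj_eq_self this)
  have hAr := hA.restrict (le_sup_left : A ≤ A ⊔ cj A y) hE'le
  have hBr := hB.restrict (le_sup_right : cj A y ≤ A ⊔ cj A y) hE'le
  have r1 : ⁅⁅V, A⁆, cj A y⁆ = ⊥ := IH _ hE'le hcard A (cj A y) rfl hAr hBr hinc1 hinc2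
  have r2 : ⁅⁅V, cj A y⁆, A⁆ = ⊥ :=
    IH _ hE'le hcard (cj A y) A (sup_comm _ _) hBr hAr hinc2 hinc1
  rw [Subgroup.commutator_eq_bot_iff_le_centralizer] at r1 r2
  rw [hVB] at r2
  intro a ha v hv
  constructor
  · have h1 := r1 hv
    rw [Subgroup.mem_centralizer_iff] at h1
    exact h1 _ (conj_mem_map_conj ha)
  · have h2 := r2 (conj_mem_map_conj (g := y) hv)
    rw [Subgroup.mem_centralizer_iff] at h2
    exact h2 a ha

/-- The key step: `B` normalizes `[V, A]`. -/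
theorem key [Finite G] {p : ℕ} {V E A B : Subgroup G} (hV : IsElementaryAbelian p V)
    (hEV : E ≤ Subgroup.normalizer (V : Set G))
    (hf : E ⊓ Subgroup.centralizer (V : Set G) = ⊥)
    (IH : ∀ E' : Subgroup G, E' ≤ E → Nat.card E' < Nat.card E → PC p V E')
    (_hgen : E = A ⊔ B) (hA : Good p V E A) (hB : Good p V E B)
    (hAB : ¬ ⁅V, A⁆ ≤ ⁅V, B⁆) (hBA : ¬ ⁅V, B⁆ ≤ ⁅V, A⁆) :
    B ≤ Subgroup.normalizer ((⁅V, A⁆ : Subgroup G) : Set G) := by
  by_contra hcon
  obtain ⟨x, hxB, hxn⟩ := SetLike.not_le_iff_exists.mp hcon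
  have hneA : A ≠ E := by
    intro h
    apply hBA
    exact Subgroup.commutator_mono le_rfl (h ▸ hB.le)
  have hneB : B ≠ E := by
    intro h
    apply hAB
    exact Subgroup.commutator_mono le_rfl (h ▸ hA.le)
  have hxE : x ∈ E := hB.le hxB
  have hxn' : x⁻¹ ∉ Subgroup.normalizer ((⁅V, A⁆ : Subgroup G) : Set G) := by
    intro h; exact hxn (by simpa using Subgroup.inv_mem _ h)
  have PCx := pair_comm hEV IH hA hneA hxE hxn
  have PCx' := pair_comm hEV IH hA hneA (E.inv_mem hxE) hxn'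
  simp only [inv_inv] at PCx'
  have hVAV : ⁅V, A⁆ ≤ V := hA.comm_le hEV
  have hVBV : ⁅V, B⁆ ≤ V := hB.comm_le hEV
  have hEVc : ∀ {e v : G}, e ∈ E → v ∈ V → e * v * e⁻¹ ∈ V := fun he hv =>
    conj_mem_of_le_normalizer hEV he hv
  have hEVc' : ∀ {e v : G}, e ∈ E → v ∈ V → e⁻¹ * v * e ∈ V := fun he hv =>
    conj_mem_of_le_normalizer' hEV he hv
  -- Claim A
  have claimA : ∀ b ∈ A, b ∈ Subgroup.normalizer ((⁅V, B⁆ : Subgroup G) : Set G) →
      ∀ v ∈ ⁅V, A⁆, ⁅v, b⁆ ∈ ⁅V, B⁆ := by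
    intro b hb hbn v hv
    have hBK : B ≤ commStab V ⁅V, B⁆ hVBV := fun z hz =>
      ⟨hEV (hB.le hz), fun w hw => Subgroup.commutator_mem_commutator hw hz⟩
    have h1 : b * x * b⁻¹ ∈ commStab V ⁅V, B⁆ hVBV := by
      refine ⟨hEV (E.mul_mem (E.mul_mem (hA.le hb) hxE) (E.inv_mem (hA.le hb))), ?_⟩
      intro w hw
      have hw' : b⁻¹ * w * b ∈ V := hEVc' (hA.le hb) hw
      have h2 : ⁅b⁻¹ * w * b, x⁆ ∈ ⁅V, B⁆ := Subgroup.commutator_mem_commutator hw' hxB
      have h3 := conj_mem_of_mem_normalizer hbn h2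
      have : ⁅w, b * x * b⁻¹⁆ = b * ⁅b⁻¹ * w * b, x⁆ * b⁻¹ := by
        simp only [commutatorElement_def]; group
      rw [this]; exact h3
    have h4 : b * x * b⁻¹ * x⁻¹ ∈ commStab V ⁅V, B⁆ hVBV :=
      Subgroup.mul_mem _ h1 (Subgroup.inv_mem _ (hBK hxB))
    have h5 := h4.2 v (hVAV hv)
    have h6 := (PCx b⁻¹ (A.inv_mem hb) v⁻¹ (Subgroup.inv_mem _ hv)).1
    have : ⁅v, b * x * b⁻¹ * x⁻¹⁆ = ⁅v, b⁆ := by
      simp only [commutatorElement_def]
      have e1 : (b * x * b⁻¹ * x⁻¹) * v⁻¹ * (b * x * b⁻¹ * x⁻¹)⁻¹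
          = b * ((x * b⁻¹ * x⁻¹) * v⁻¹) * (x * b * x⁻¹) * b⁻¹ := by group
      have e2 : v * (b * x * b⁻¹ * x⁻¹) * v⁻¹ * (b * x * b⁻¹ * x⁻¹)⁻¹
          = v * ((b * x * b⁻¹ * x⁻¹) * v⁻¹ * (b * x * b⁻¹ * x⁻¹)⁻¹) := by group
      rw [e2, e1, h6]; group
    rw [this] at h5
    exact h5
  -- Claim B
  have claimB : ∀ b ∈ A, b ∉ Subgroup.normalizer ((⁅V, B⁆ : Subgroup G) : Set G) →
      ∀ v ∈ ⁅V, A⁆, b * v * b⁻¹ = v⁻¹ := by
    intro b hb hbn v hv
    have hbE : b ∈ E := hA.le hb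
    have hbn' : b⁻¹ ∉ Subgroup.normalizer ((⁅V, B⁆ : Subgroup G) : Set G) := by
      intro h; exact hbn (by simpa using Subgroup.inv_mem _ h)
    have PCb' := pair_comm hEV IH hB hneB (E.inv_mem hbE) hbn'
    simp only [inv_inv] at PCb'
    obtain ⟨u, hu⟩ : ∃ u, u = b * v * b⁻¹ := ⟨_, rfl⟩
    have huA : u ∈ ⁅V, A⁆ := by rw [hu]; exact conj_mem_of_le_normalizer hA.le_norm hb hv
    have huV : u ∈ V := hVAV huA
    have hvV : v ∈ V := hVAV hv
    -- w₀ = [x⁻¹, u] ∈ [V, B]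
    have hw0 : x⁻¹ * u * x * u⁻¹ ∈ ⁅V, B⁆ := by
      have := Subgroup.commutator_mem_commutator (H₁ := B) (H₂ := V) (B.inv_mem hxB) huV
      rw [Subgroup.commutator_comm] at this
      simpa [commutatorElement_def] using this
    have h1 := (PCb' x hxB _ hw0).2
    -- b⁻¹ w₀ b = (x⁻¹ u x) v⁻¹
    have h2 : b * (x⁻¹ * u * x) = (x⁻¹ * u * x) * b := (PCx' b hb u huA).2
    have h3 : b⁻¹ * (x⁻¹ * u * x * u⁻¹) * b = (x⁻¹ * u * x) * v⁻¹ := by
      have e2 : b⁻¹ * u⁻¹ * b = v⁻¹ := by rw [hu]; group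
      calc b⁻¹ * (x⁻¹ * u * x * u⁻¹) * b = b⁻¹ * ((x⁻¹ * u * x) * b) * (b⁻¹ * u⁻¹ * b) := by group
        _ = b⁻¹ * (b * (x⁻¹ * u * x)) * (b⁻¹ * u⁻¹ * b) := by rw [h2]
        _ = (x⁻¹ * u * x) * v⁻¹ := by rw [e2]; group
    rw [h3] at h1
    -- h1 : x * (x⁻¹ u x v⁻¹) = (x⁻¹ u x v⁻¹) * x
    obtain ⟨P, hP⟩ : ∃ P, P = x * v * x⁻¹ := ⟨_, rfl⟩
    obtain ⟨Q, hQ⟩ : ∃ Q, Q = x⁻¹ * u * x := ⟨_, rfl⟩
    have hPV : P ∈ V := by rw [hP]; exact hEVc hxE hvV
    have hQV : Q ∈ V := by rw [hQ]; exact hEVc' hxE huV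
    rw [← hQ] at h1
    have e1 : u * P⁻¹ = Q * v⁻¹ := by
      have : u * P⁻¹ = x * Q * v⁻¹ * x⁻¹ := by rw [hP, hQ]; group
      rw [this]
      calc x * Q * v⁻¹ * x⁻¹ = (x * (Q * v⁻¹)) * x⁻¹ := by group
        _ = (Q * v⁻¹ * x) * x⁻¹ := by rw [h1]
        _ = Q * v⁻¹ := by group
    have e2 : u * v = Q * P := by
      have hu' : u = Q * v⁻¹ * P := by rw [← e1]; group
      have hc1 : P * v = v * P := comm_of_mem hV hPV hvV
      calc u * v = Q * v⁻¹ * (P * v) := by rw [hu']; group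
        _ = Q * v⁻¹ * (v * P) := by rw [hc1]
        _ = Q * P := by group
    have hcent : u * v ∈ ⁅V, A⁆ ⊓ Subgroup.centralizer (A : Set G) := by
      refine Subgroup.mem_inf.mpr ⟨Subgroup.mul_mem _ huA hv, ?_⟩
      rw [Subgroup.mem_centralizer_iff, e2]
      intro a ha
      have c1 : a * Q = Q * a := by rw [hQ]; exact (PCx' a ha u huA).2
      have c2 : a * P = P * a := by rw [hP]; exact (PCx a ha v hv).2
      calc a * (Q * P) = (a * Q) * P := by group
        _ = Q * (a * P) := by rw [c1]; group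
        _ = Q * P * a := by rw [c2]; group
    rw [hA.comm_inf_centralizer hV hEV hf, Subgroup.mem_bot] at hcent
    rw [← hu]
    exact eq_inv_of_mul_eq_one_left hcent
  -- Claim C
  have claimC : ∀ b ∈ A, b ∉ Subgroup.normalizer ((⁅V, B⁆ : Subgroup G) : Set G) →
      ∀ b' ∈ A, b' ∉ Subgroup.normalizer ((⁅V, B⁆ : Subgroup G) : Set G) → b' = b := by
    intro b hb hbn b' hb' hbn'
    have hmem : b⁻¹ * b' ∈ A ⊓ Subgroup.centralizer ((⁅V, A⁆ : Subgroup G) : Set G) := by
      refine Subgroup.mem_inf.mpr ⟨A.mul_mem (A.inv_mem hb) hb', ?_⟩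
      rw [Subgroup.mem_centralizer_iff]
      intro v hv
      have h1 := claimB b hb hbn v hv
      have h2 := claimB b' hb' hbn' v hv
      have h3 : b' * v * b'⁻¹ = b * v * b⁻¹ := by rw [h1, h2]
      calc v * (b⁻¹ * b') = b⁻¹ * (b * v * b⁻¹) * b' := by group
        _ = b⁻¹ * (b' * v * b'⁻¹) * b' := by rw [h3]
        _ = b⁻¹ * b' * v := by group
    rw [hA.inf_centralizer_comm hV hEV hf, Subgroup.mem_bot] at hmem
    exact (inv_mul_eq_one.mp hmem).symm
  by_cases hAN : A ≤ Subgroup.normalizer ((⁅V, B⁆ : Subgroup G) : Set G)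
  · apply hAB
    rw [← hA.comm_comm hV hEV hf, Subgroup.commutator_le]
    intro v hv b hb
    exact claimA b hb (hAN hb) v hv
  · obtain ⟨b₀, hb₀, hb₀n⟩ := SetLike.not_le_iff_exists.mp hAN
    have hex : ∃ c ∈ A, c ≠ 1 ∧ c ≠ b₀ := by
      by_contra hno
      push Not at hno
      have hsub : (A : Set G) ⊆ {1, b₀} := by
        intro c hc
        by_cases h1 : c = 1
        · left; exact h1
        · right; exact hno c hc h1
      have h1 : Nat.card A = (A : Set G).ncard := (Nat.card_coe_set_eq (A : Set G))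
      have h2 : (A : Set G).ncard ≤ ({1, b₀} : Set G).ncard :=
        Set.ncard_le_ncard hsub (Set.toFinite _)
      have h3 : ({1, b₀} : Set G).ncard ≤ 2 := by
        refine (Set.ncard_insert_le _ _).trans ?_
        simp
      have := hA.card
      omega
    obtain ⟨c, hcA, hc1, hcb⟩ := hex
    have hcN : c ∈ Subgroup.normalizer ((⁅V, B⁆ : Subgroup G) : Set G) := by
      by_contra h
      exact hcb (claimC b₀ hb₀ hb₀n c hcA h)
    have hbc : b₀ * c ∉ Subgroup.normalizer ((⁅V, B⁆ : Subgroup G) : Set G) := by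
      intro h
      apply hb₀n
      have := Subgroup.mul_mem _ h (Subgroup.inv_mem _ hcN)
      simpa using this
    have := claimC b₀ hb₀ hb₀n (b₀ * c) (A.mul_mem hb₀ hcA) hbc
    exact hc1 (by simpa using this)

/-- Main induction: each of the two subgroups centralizes the commutator module of the other. -/
theorem main [Finite G] {p : ℕ} {V : Subgroup G} (hV : IsElementaryAbelian p V) :
    ∀ n : ℕ, ∀ E : Subgroup G, Nat.card E = n → E ≤ Subgroup.normalizer (V : Set G) →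
      E ⊓ Subgroup.centralizer (V : Set G) = ⊥ → PC p V E := by
  intro n
  induction n using Nat.strong_induction_on with
  | _ n ih =>
    intro E hn hEV hf A B hgen hA hB hAB hBA
    have IH : ∀ E' : Subgroup G, E' ≤ E → Nat.card E' < Nat.card E → PC p V E' := by
      intro E' hle hlt
      refine ih (Nat.card E') (hn ▸ hlt) E' rfl (hle.trans hEV) ?_
      rw [eq_bot_iff, ← hf]
      exact inf_le_inf_right _ hle
    have hBN := key hV hEV hf IH hgen hA hB hAB hBA
    have hAN := key hV hEV hf IH (hgen.trans (sup_comm _ _)) hB hA hBA hAB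
    have hU : ⁅V, A⁆ ⊓ ⁅V, B⁆ = ⊥ := by
      have hN : A ≤ Subgroup.normalizer ((⁅V, A⁆ ⊓ ⁅V, B⁆ : Subgroup G) : Set G) := by
        apply le_normalizer_of_conj
        intro a ha x hx
        obtain ⟨hx1, hx2⟩ := Subgroup.mem_inf.mp hx
        exact Subgroup.mem_inf.mpr ⟨conj_mem_of_le_normalizer hA.le_norm ha hx1,
          conj_mem_of_le_normalizer hAN ha hx2⟩
      rcases hA.irr _ inf_le_left hN with h | h
      · exact h
      · exact absurd (h ▸ inf_le_right) hAB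
    rw [eq_bot_iff, ← hU]
    exact le_inf (commutator_le_of_le_normalizer hBN le_rfl)
      (Subgroup.commutator_mono (hA.comm_le hEV) le_rfl)

end Cfsg.Agent.Lib.Helper11.SubnPair
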